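import Cfsg.Agent.Lib.Signalizer.CoprimeGeneration

/-!
`C_Y(B)` is generated by `C_Y(B) ∩ [C_Y(B₀),A]`, `B/B₀` cyclic, for a solvable group `Y` of odd
order with `Y = [Y,A]`.
-/

set_option autoImplicit false
set_option linter.style.haveILetI false

open scoped commutatorElement

namespace CfsgLib.Signalizer.CoprimeGen

open CfsgLib.CoprimeAction

universe u

variable {G : Type u} [Group G] [Finite G] {A B Y : Subgroup G}

theorem mem_of_split {M W : Subgroup G} (hM : IsMulCommutative ↥M) (hA2 : IsPGroup 2 ↥A)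
    (hB : B ≤ A) (hAM : A ≤ Subgroup.normalizer (M : Set G)) (hodd : Odd (Nat.card ↥M))
    (hWC : W ≤ Subgroup.centralizer (B : Set G)) {x : G} (hx : x ∈ (M ⊓ W) ⊔ ⁅M, B⁆)
    (hxC : x ∈ Subgroup.centralizer (B : Set G)) : x ∈ W := by
  have hBM : B ≤ Subgroup.normalizer (M : Set G) := hB.trans hAM
  have hMB : ⁅M, B⁆ ≤ M := commutator_le_left hBM
  have hn : ⁅M, B⁆ ≤ Subgroup.normalizer ((M ⊓ W : Subgroup G) : Set G) := by
    intro m hm
    refine mem_normalizer_of_conj_mem fun y hy => ?_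
    rw [comm_of_mem hM (hMB hm) hy.1, mul_inv_cancel_right]
    exact hy
  rw [← SetLike.mem_coe, Subgroup.coe_mul_of_right_le_normalizer_left _ _ hn] at hx
  obtain ⟨w, hw, n, hn', rfl⟩ := hx
  haveI := hM
  have hnC : n ∈ Subgroup.centralizer (B : Set G) := by
    simpa using Subgroup.mul_mem _ (Subgroup.inv_mem _ (hWC hw.2)) hxC
  have := inf_commutator_eq_bot hBM
    ((coprime_card hA2 hodd).coprime_dvd_left (Subgroup.card_dvd_of_le hB))
  have hn1 : n = 1 := Subgroup.mem_bot.mp (this.le ⟨⟨hMB hn', hnC⟩, hn'⟩)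
  simpa [hn1] using hw.2

/-- Invariant abelian piece `[V,A]`. -/
theorem commutator_abelian_inf_le (hA2 : IsPGroup 2 ↥A) (hAc : IsMulCommutative ↥A) (hB : B ≤ A)
    {V : Subgroup G} (hVY : V ≤ Y) (hVc : IsMulCommutative ↥V) (hodd : Odd (Nat.card ↥Y))
    (hAV : A ≤ Subgroup.normalizer (V : Set G)) :
    ⁅V, A⁆ ⊓ Subgroup.centralizer (B : Set G) ≤ genSub A B Y := by
  let VB : Subgroup G := V ⊓ Subgroup.centralizer (B : Set G)
  have hBV : B ≤ Subgroup.normalizer (V : Set G) := hB.trans hAV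
  have hAVB : A ≤ Subgroup.normalizer (VB : Set G) := le_normalizer_inf_centralizer hAc hAV hB
  let U : Subgroup G := (V ⊓ genSub A B Y) ⊔ ⁅V, B⁆
  have hAN : A ≤ Subgroup.normalizer ((⁅V, B⁆ : Subgroup G) : Set G) :=
    le_normalizer_commutator hAV (le_normalizer_of_le_comm hAc hB)
  have hle : ⁅V, A⁆ ≤ U := by
    refine Subgroup.commutator_le.mpr fun v hv a ha => ?_
    have hv' : v ∈ VB ⊔ ⁅V, B⁆ := by
      haveI := hVc
      rw [sup_commutator_eq hBV
        ((coprime_card hA2 (odd_of_le hVY hodd)).coprime_dvd_left (Subgroup.card_dvd_of_le hB))]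
      exact hv
    have hn : ⁅V, B⁆ ≤ Subgroup.normalizer (VB : Set G) := fun m hm => by
      refine mem_normalizer_of_conj_mem fun y hy => ?_
      rw [comm_of_mem hVc (commutator_le_left hBV hm) hy.1, mul_inv_cancel_right]
      exact hy
    rw [← SetLike.mem_coe, Subgroup.coe_mul_of_right_le_normalizer_left _ _ hn] at hv'
    obtain ⟨c, hc, n, hn', rfl⟩ := hv'
    have hnV : n ∈ V := commutator_le_left hBV hn'
    have han : a * n⁻¹ * a⁻¹ ∈ ⁅V, B⁆ := conj_mem (hAN ha) (Subgroup.inv_mem _ hn')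
    have hac : a * c⁻¹ * a⁻¹ ∈ V := conj_mem (hAV ha) (V.inv_mem hc.1)
    have hcomm : n * (a * n⁻¹ * a⁻¹) * (a * c⁻¹ * a⁻¹) =
        (a * c⁻¹ * a⁻¹) * (n * (a * n⁻¹ * a⁻¹)) :=
      comm_of_mem hVc (V.mul_mem hnV (commutator_le_left hBV han)) hac
    have hkey : ⁅c * n, a⁆ = ⁅c, a⁆ * (n * (a * n⁻¹ * a⁻¹)) := by
      calc ⁅c * n, a⁆ = c * (n * (a * n⁻¹ * a⁻¹) * (a * c⁻¹ * a⁻¹)) := by
            simp [commutatorElement_def, mul_assoc]
        _ = _ := by rw [hcomm]; simp [commutatorElement_def, mul_assoc]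
    rw [hkey]
    refine Subgroup.mul_mem_sup ⟨?_, ?_⟩ (Subgroup.mul_mem _ hn' han)
    · rw [commutatorElement_def]
      simpa [mul_assoc] using V.mul_mem hc.1 hac
    · refine fixed_commutator_le_genSub ⟨?_, Subgroup.commutator_mem_commutator ⟨hVY hc.1, hc.2⟩ ha⟩
      have := commutator_le_left hAVB (Subgroup.commutator_mem_commutator hc ha)
      exact ⟨hVY this.1, this.2⟩
  intro x hx
  exact mem_of_split hVc hA2 hB hAV (odd_of_le hVY hodd)
    ((genSub_le A B Y).trans inf_le_right) (hle hx.1) hx.2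

/-- The pairing lemma: `C(B) ∩ [L,Y]` for `[L,Y]` abelian and centralized by `L`. -/
theorem commutator_pairing_inf_le (hA2 : IsPGroup 2 ↥A) (hAc : IsMulCommutative ↥A) (hB : B ≤ A)
    (hsol : Group.IsSolvable ↥Y) (hodd : Odd (Nat.card ↥Y))
    (hAY : A ≤ Subgroup.normalizer (Y : Set G)) (hYA : ⁅Y, A⁆ = Y) {L : Subgroup G} (hLY : L ≤ Y)
    (hYL : Y ≤ Subgroup.normalizer (L : Set G)) (hAL : A ≤ Subgroup.normalizer (L : Set G))
    (hMc : IsMulCommutative ↥⁅L, Y⁆)
    (hLM : L ≤ Subgroup.centralizer ((⁅L, Y⁆ : Subgroup G) : Set G)) :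
    ⁅L, Y⁆ ⊓ Subgroup.centralizer (B : Set G) ≤ genSub A B Y := by
  let M : Subgroup G := ⁅L, Y⁆
  have hML : M ≤ L := commutator_le_left hYL
  have hAM : A ≤ Subgroup.normalizer (M : Set G) := le_normalizer_commutator hAL hAY
  have hBM : B ≤ Subgroup.normalizer (M : Set G) := hB.trans hAM
  let U : Subgroup G := (M ⊓ genSub A B Y) ⊔ ⁅M, B⁆
  have hUM : U ≤ M := sup_le inf_le_left (commutator_le_left hBM)
  -- conjugation by `Y`
  have hsucc : ∀ y₁ ∈ Y, (∀ l ∈ L, ⁅l, y₁⁆ ∈ U) → ∀ u ∈ U, y₁ * u * y₁⁻¹ ∈ U := by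
    intro y hy h u hu
    have h1 := h u⁻¹ (L.inv_mem (hML (hUM hu)))
    have h2 : u * ⁅u⁻¹, y⁆ = y * u * y⁻¹ := by simp [commutatorElement_def, mul_assoc]
    exact h2 ▸ U.mul_mem hu h1
  have hYgen : ∀ y ∈ Y, ∀ l ∈ L, ⁅l, y⁆ ∈ U := by
    intro y hy
    suffices y ∈ Y ∧ ∀ l ∈ L, ⁅l, y⁆ ∈ U from this.2
    refine Subgroup.iSup_induction (C := fun y => y ∈ Y ∧ ∀ l ∈ L, ⁅l, y⁆ ∈ U) _
      (le_iSup_commutator hA2 hAc hB hsol hodd hAY hYA hy) (fun i k hk => ?_)
      ⟨Y.one_mem, fun l _ => by simp⟩ (fun y₁ y₂ h₁ h₂ => ⟨Y.mul_mem h₁.1 h₂.1, fun l hl => ?_⟩)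
    · obtain ⟨B₀, hB₀B, hB₀c⟩ := i
      have hB₀A : B₀ ≤ A := hB₀B.trans hB
      let K : Subgroup G := ⁅Y ⊓ Subgroup.centralizer (B₀ : Set G), A⁆
      have hCN : A ≤ Subgroup.normalizer
          ((Y ⊓ Subgroup.centralizer (B₀ : Set G) : Subgroup G) : Set G) :=
        le_normalizer_inf_centralizer hAc hAY hB₀A
      have hkY : k ∈ Y ⊓ Subgroup.centralizer (B₀ : Set G) := commutator_le_left hCN hk
      refine ⟨hkY.1, fun l hl => ?_⟩
      have hAK : A ≤ Subgroup.normalizer (K : Set G) :=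
        le_sup_right.trans (sup_le_normalizer_commutator A _)
      have hBK : B ≤ Subgroup.normalizer ((M ⊓ K : Subgroup G) : Set G) := fun b hb =>
        mem_normalizer_of_conj_mem fun z hz =>
          ⟨conj_mem (hBM hb) hz.1, conj_mem (hAK (hB hb)) hz.2⟩
      have hMK : M ⊓ K ≤ U := by
        intro z hz
        obtain ⟨n, hn, c, hc, rfl⟩ := commutator_sup_centralizer_aux hBK
          ((coprime_card hA2 (odd_of_le (inf_le_left.trans (hML.trans hLY)) hodd)).coprime_dvd_left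
            (Subgroup.card_dvd_of_le hB))
          (Or.inr (haveI := hsol; isSolvable_of_le (inf_le_left.trans (hML.trans hLY)))) hz
        refine Subgroup.mul_mem _ (Subgroup.mem_sup_right
          (Subgroup.commutator_mono inf_le_left le_rfl hn)) (Subgroup.mem_sup_left ⟨hc.1.1, ?_⟩)
        exact le_genSub hB₀B hB₀c ⟨⟨hLY (hML hc.1.1), hc.2⟩, hc.1.2⟩
      -- the map `l ↦ [l,k]` is a homomorphism on `L`
      have hhom : ∀ l₁ ∈ L, ∀ l₂ ∈ L, ⁅l₁ * l₂, k⁆ = ⁅l₂, k⁆ * ⁅l₁, k⁆ := by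
        intro l₁ h₁ l₂ h₂
        have hm : ⁅l₂, k⁆ ∈ M := Subgroup.commutator_mem_commutator h₂ hkY.1
        have hc : ⁅l₂, k⁆ * l₁ = l₁ * ⁅l₂, k⁆ := Subgroup.mem_centralizer_iff.mp (hLM h₁) _ hm
        calc ⁅l₁ * l₂, k⁆ = l₁ * ⁅l₂, k⁆ * (k * l₁⁻¹ * k⁻¹) := by
              simp [commutatorElement_def, mul_assoc]
          _ = _ := by rw [← hc]; simp [commutatorElement_def, mul_assoc]
      let S : Subgroup G :=
        { carrier := {l | l ∈ L ∧ ⁅l, k⁆ ∈ U}
          one_mem' := ⟨L.one_mem, by simp⟩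
          mul_mem' := fun {a b} ha hb => ⟨L.mul_mem ha.1 hb.1, by
            rw [hhom a ha.1 b hb.1]; exact U.mul_mem hb.2 ha.2⟩
          inv_mem' := fun {a} ha => ⟨L.inv_mem ha.1, by
            have h := hhom a⁻¹ (L.inv_mem ha.1) a ha.1
            rw [inv_mul_cancel, commutatorElement_one_left] at h
            rw [eq_inv_of_mul_eq_one_right h.symm]
            exact U.inv_mem ha.2⟩ }
      suffices L ≤ S from (this hl).2
      rw [← commutator_sup_centralizer (A := B₀) (K := L) ((hB₀A.trans hAL))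
        ((coprime_card hA2 (odd_of_le hLY hodd)).coprime_dvd_left (Subgroup.card_dvd_of_le hB₀A))
        (Or.inr (haveI := hsol; isSolvable_of_le hLY))]
      refine sup_le (Subgroup.commutator_le.mpr fun l' hl' b hb => ?_) fun c hc => ⟨hc.1, ?_⟩
      · have hbl : b * l'⁻¹ * b⁻¹ ∈ L := conj_mem ((hB₀A.trans hAL) hb) (L.inv_mem hl')
        refine ⟨?_, ?_⟩
        · rw [commutatorElement_def]
          simpa [mul_assoc] using L.mul_mem hl' hbl
        have hbk : b * k = k * b := Subgroup.mem_centralizer_iff.mp hkY.2 b hb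
        have hb1 : k * b * k⁻¹ = b := by rw [← hbk, mul_inv_cancel_right]
        have h1 : ⁅b * l'⁻¹ * b⁻¹, k⁆ = b * ⁅l'⁻¹, k⁆ * b⁻¹ := by
          have hb2 : k * b⁻¹ * k⁻¹ = b⁻¹ := by
            simpa [mul_assoc] using congrArg Inv.inv hb1
          calc ⁅b * l'⁻¹ * b⁻¹, k⁆
              = b * l'⁻¹ * b⁻¹ * (k * b * k⁻¹) * (k * l' * k⁻¹) * (k * b⁻¹ * k⁻¹) := by
                simp [commutatorElement_def, mul_assoc]
            _ = _ := by rw [hb1, hb2]; simp [commutatorElement_def, mul_assoc]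
        have h2 : ⁅l'⁻¹, k⁆ = ⁅l', k⁆⁻¹ := by
          have h := hhom l'⁻¹ (L.inv_mem hl') l' hl'
          rw [inv_mul_cancel, commutatorElement_one_left] at h
          exact eq_inv_of_mul_eq_one_right h.symm
        rw [show ⁅l', b⁆ = l' * (b * l'⁻¹ * b⁻¹) by simp [commutatorElement_def, mul_assoc],
          hhom _ hl' _ hbl, h1, h2]
        refine Subgroup.mem_sup_right ?_
        have hmem : ⁅l', k⁆ ∈ M := Subgroup.commutator_mem_commutator hl' hkY.1
        have hcm : b * ⁅l', k⁆⁻¹ * b⁻¹ * ⁅l', k⁆ = ⁅l', k⁆ * (b * ⁅l', k⁆⁻¹ * b⁻¹) :=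
          comm_of_mem hMc (conj_mem (hBM (hB₀B hb)) (M.inv_mem hmem)) hmem
        rw [hcm]
        simpa [commutatorElement_def, mul_assoc] using
          Subgroup.commutator_mem_commutator hmem (hB₀B hb)
      · refine hMK ⟨Subgroup.commutator_mem_commutator hc.1 hkY.1, ?_⟩
        have hcN : c ∈ Subgroup.normalizer (K : Set G) :=
          (le_sup_left.trans (sup_le_normalizer_commutator A _)) ⟨hLY hc.1, hc.2⟩
        rw [commutatorElement_def]
        exact K.mul_mem (conj_mem hcN hk) (K.inv_mem hk)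
    · have : ⁅l, y₁ * y₂⁆ = ⁅l, y₁⁆ * (y₁ * ⁅l, y₂⁆ * y₁⁻¹) := by
        simp [commutatorElement_def, mul_assoc]
      rw [this]
      exact U.mul_mem (h₁.2 l hl) (hsucc y₁ h₁.1 h₁.2 _ (h₂.2 l hl))
  intro x hx
  have hxU : x ∈ U := by
    refine (Subgroup.commutator_le.mpr fun l hl y hy => hYgen y hy l hl) hx.1
  exact mem_of_split hMc hA2 hB hAM (odd_of_le (hML.trans hLY) hodd)
    ((genSub_le A B Y).trans inf_le_right) hxU hx.2

theorem exists_abelian_invariant {S D : Subgroup G} (hsolD : Group.IsSolvable ↥D) (hD : D ≠ ⊥)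
    (hS : S ≤ Subgroup.normalizer (D : Set G)) :
    ∃ V ≤ D, V ≠ ⊥ ∧ IsMulCommutative ↥V ∧ S ≤ Subgroup.normalizer (V : Set G) := by
  induction D using WellFoundedLT.induction with
  | ind D ih =>
    by_cases h : ⁅D, D⁆ = ⊥
    · exact ⟨D, le_rfl, hD, isMulCommutative_of_le_centralizer le_rfl
        (Subgroup.commutator_eq_bot_iff_le_centralizer.mp h), hS⟩
    · haveI := hsolD
      have hlt := commutator_lt_of_isSolvable D hD
      obtain ⟨V, hV, h1, h2, h3⟩ :=
        ih _ hlt (isSolvable_of_le hlt.le) h (le_normalizer_commutator hS hS)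
      exact ⟨V, hV.trans hlt.le, h1, h2, h3⟩

omit [Finite G] in
theorem exists_second_centre {p : ℕ} [Fact p.Prime] [Finite ↥Y] (hp : IsPGroup p ↥Y)
    (hY : ¬ Y ≤ Subgroup.centralizer (Y : Set G)) :
    ∃ L : Subgroup Y, L.Characteristic ∧ ⁅L, (⊤ : Subgroup Y)⁆ ≠ ⊥ ∧
      ⁅L, (⊤ : Subgroup Y)⁆ ≤ Subgroup.center Y := by
  refine ⟨Subgroup.upperCentralSeries Y 2, inferInstance, fun h => ?_,
    (Subgroup.commutator_upperCentralSeries_top_le Y 1).trans
      (Subgroup.upperCentralSeries_one Y).le⟩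
  have h2 : Subgroup.upperCentralSeries Y 2 ≤ Subgroup.center Y := by
    intro z hz
    refine Subgroup.mem_center_iff.mpr fun g => ?_
    have := h.le (Subgroup.commutator_mem_commutator hz (Subgroup.mem_top g))
    exact (commutatorElement_eq_one_iff_mul_comm.mp (Subgroup.mem_bot.mp this)).symm
  have hall : ∀ n, Subgroup.upperCentralSeries Y n ≤ Subgroup.center Y := by
    intro n
    induction n with
    | zero => simp
    | succ n ih =>
      intro z hz
      refine h2 (Subgroup.mem_upperCentralSeries_succ_iff.mpr fun y => ?_)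
      rw [Subgroup.upperCentralSeries_one]
      exact ih (Subgroup.mem_upperCentralSeries_succ_iff.mp hz y)
  haveI : Group.IsNilpotent Y := hp.isNilpotent
  obtain ⟨n, hn⟩ := Group.IsNilpotent.nilpotent Y
  refine hY fun y hy => Subgroup.mem_centralizer_iff.mpr fun z hz => ?_
  have := Subgroup.mem_center_iff.mp ((hn ▸ hall n) (Subgroup.mem_top (⟨y, hy⟩ : Y))) ⟨z, hz⟩
  exact congrArg Subtype.val this

/-- Reduction of the statement to the quotient by a normal invariant subgroup. -/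
theorem le_sup_of_quotient (hA2 : IsPGroup 2 ↥A) (hB : B ≤ A) (hsol : Group.IsSolvable ↥Y)
    (hodd : Odd (Nat.card ↥Y)) (hAY : A ≤ Subgroup.normalizer (Y : Set G)) (hYA : ⁅Y, A⁆ = Y)
    (hAc : IsMulCommutative ↥A)
    (IH : ∀ (H : Type u) [Group H] [Finite H] (A' B' Y' : Subgroup H), Nat.card Y' < Nat.card Y →
      IsPGroup 2 ↥A' → IsMulCommutative ↥A' → B' ≤ A' → Group.IsSolvable ↥Y' →
      Odd (Nat.card ↥Y') → A' ≤ Subgroup.normalizer (Y' : Set H) → ⁅Y', A'⁆ = Y' →
      Y' ⊓ Subgroup.centralizer (B' : Set H) ≤ genSub A' B' Y')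
    {M : Subgroup G} (hMY : M ≤ Y) (hM : M ≠ ⊥) (hYM : Y ≤ Subgroup.normalizer (M : Set G))
    (hAM : A ≤ Subgroup.normalizer (M : Set G)) :
    Y ⊓ Subgroup.centralizer (B : Set G) ≤ genSub A B Y ⊔ M := by
  haveI := hsol
  let N : Subgroup G := Subgroup.normalizer (M : Set G)
  haveI hMn : (M.subgroupOf N).Normal := Subgroup.normal_in_normalizer
  let π : N →* N ⧸ M.subgroupOf N := QuotientGroup.mk' _
  let im : Subgroup G → Subgroup (N ⧸ M.subgroupOf N) := fun H => (H.subgroupOf N).map π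
  have hBN : B ≤ N := hB.trans hAM
  have mem_im : ∀ {H : Subgroup G}, H ≤ N → ∀ {x : G} (hx : x ∈ H) (hxN : x ∈ N),
      π ⟨x, hxN⟩ ∈ im H := fun {H} _ {x} hx hxN =>
    Subgroup.mem_map_of_mem π (show (⟨x, hxN⟩ : N) ∈ H.subgroupOf N from hx)
  have him_comm : ∀ {H K : Subgroup G}, H ≤ N → K ≤ N → im ⁅H, K⁆ = ⁅im H, im K⁆ := by
    intro H K hH hK
    have : (⁅H, K⁆).subgroupOf N = ⁅H.subgroupOf N, K.subgroupOf N⁆ := by
      apply Subgroup.map_injective N.subtype_injective
      rw [Subgroup.map_commutator, Subgroup.map_subgroupOf_eq_of_le hH,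
        Subgroup.map_subgroupOf_eq_of_le hK, Subgroup.map_subgroupOf_eq_of_le
          (Subgroup.commutator_le.mpr fun a ha b hb =>
            mul_mem (mul_mem (mul_mem (hH ha) (hK hb)) (inv_mem (hH ha))) (inv_mem (hK hb)))]
    show (⁅H, K⁆.subgroupOf N).map π = _
    rw [this, Subgroup.map_commutator]
  have him_norm : A ≤ Subgroup.normalizer (Y : Set G) →
      im A ≤ Subgroup.normalizer ((im Y : Subgroup _) : Set (N ⧸ M.subgroupOf N)) := by
    intro h
    rintro _ ⟨a, ha, rfl⟩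
    refine mem_normalizer_of_conj_mem ?_
    rintro _ ⟨y, hy, rfl⟩
    exact ⟨a * y * a⁻¹, show ((a * y * a⁻¹ : N) : G) ∈ Y from conj_mem (h ha) hy, by simp⟩
  -- fixed points lift
  have hlift : ∀ (K D : Subgroup G), K ≤ Y → D ≤ A → A ≤ Subgroup.normalizer (K : Set G) →
      im K ⊓ Subgroup.centralizer ((im D : Subgroup _) : Set (N ⧸ M.subgroupOf N)) ≤
        im (K ⊓ Subgroup.centralizer (D : Set G)) := by
    intro K D hK hD hAK q hq
    obtain ⟨⟨k, hkN⟩, hk, rfl⟩ := hq.1
    obtain ⟨c, hc, hcM⟩ := exists_centralizer_mem_coset_of_le (A := D) (K := K) (N := K ⊓ M)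
      (fun d hd => mem_normalizer_of_conj_mem fun z hz =>
        ⟨conj_mem (hAK (hD hd)) hz.1, conj_mem (hAM (hD hd)) hz.2⟩) inf_le_left
      ((coprime_card hA2 (odd_of_le (inf_le_left.trans hK) hodd)).coprime_dvd_left
        (Subgroup.card_dvd_of_le hD))
      (Or.inr (isSolvable_of_le (inf_le_left.trans hK))) hk (fun d hd => by
        refine ⟨K.mul_mem (K.inv_mem hk) (conj_mem (hAK (hD hd)) hk), ?_⟩
        have hdN : d ∈ N := hAM (hD hd)
        have h := Subgroup.mem_centralizer_iff.mp hq.2 _ (mem_im (hD.trans hAM) hd hdN)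
        have h2 : π ((⟨k, hkN⟩ : N)⁻¹ * (⟨d, hdN⟩ * ⟨k, hkN⟩ * (⟨d, hdN⟩ : N)⁻¹)) = 1 := by
          rw [map_mul, map_mul, map_mul, map_inv, map_inv, h]
          simp [mul_assoc]
        exact (QuotientGroup.eq_one_iff (N := M.subgroupOf N) _).mp h2)
    have hcN : c ∈ N := hYM (hK hc.1)
    refine ⟨⟨c, hcN⟩, hc, ?_⟩
    exact (QuotientGroup.eq.mpr (show ((⟨k, hkN⟩ : N)⁻¹ * ⟨c, hcN⟩) ∈ M.subgroupOf N
      from hcM.2)).symm
  have hAc' : IsMulCommutative ↥(im A) := ⟨⟨by
    rintro ⟨_, a, ha, rfl⟩ ⟨_, b, hb, rfl⟩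
    refine Subtype.ext ?_
    show π a * π b = π b * π a
    rw [← map_mul, ← map_mul]
    exact congrArg π (Subtype.ext (comm_of_mem hAc ha hb))⟩⟩
  have hYA' : ⁅im Y, im A⁆ = im Y := by rw [← him_comm hYM hAM, hYA]
  have hsol' : Group.IsSolvable ↥(im Y) := by
    haveI : Group.IsSolvable ↥(Y.subgroupOf N) :=
      Group.isSolvable_of_isSolvable_injective
        (f := (Subgroup.subgroupOfEquivOfLe hYM).toMonoidHom)
        (Subgroup.subgroupOfEquivOfLe hYM).injective
    exact Group.isSolvable_of_surjective (π.subgroupMap_surjective (Y.subgroupOf N))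
  have hcardY : Nat.card (Y.subgroupOf N) = Nat.card Y :=
    Nat.card_congr (Subgroup.subgroupOfEquivOfLe hYM).toEquiv
  have hdvd : Nat.card ↥(im Y) ∣ Nat.card Y := hcardY ▸ Subgroup.card_map_dvd _ π
  have hlt : Nat.card ↥(im Y) < Nat.card Y := by
    refine lt_of_le_of_ne (Nat.le_of_dvd Nat.card_pos hdvd) fun h => ?_
    let f : ↥(Y.subgroupOf N) →* N ⧸ M.subgroupOf N := π.comp (Y.subgroupOf N).subtype
    have hr : Nat.card f.range = Nat.card ↥(im Y) := by
      rw [MonoidHom.range_comp, Subgroup.range_subtype]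
    have h2 : f.ker.index * Nat.card f.ker = Nat.card (Y.subgroupOf N) :=
      f.ker.index_mul_card
    rw [Subgroup.index_ker, hr, h, hcardY] at h2
    have h3 : f.ker = ⊥ := Subgroup.card_eq_one.mp
      (Nat.eq_of_mul_eq_mul_left Nat.card_pos (h2.trans (mul_one _).symm))
    refine hM (eq_bot_iff.mpr fun m hm => ?_)
    have hmN : m ∈ N := hYM (hMY hm)
    have : (⟨⟨m, hmN⟩, hMY hm⟩ : Y.subgroupOf N) ∈ f.ker := by
      show π ⟨m, hmN⟩ = 1
      exact (QuotientGroup.eq_one_iff _).mpr hm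
    rw [h3, Subgroup.mem_bot] at this
    exact Subgroup.mem_bot.mpr (congrArg (fun z : Y.subgroupOf N => ((z : N) : G)) this)
  have hres := IH _ (im A) (im B) (im Y) hlt
    (((hA2.comap_of_injective N.subtype N.subtype_injective).map π)) hAc'
    (Subgroup.map_mono (Subgroup.comap_mono hB)) hsol' (hodd.of_dvd_nat hdvd)
    (him_norm hAY) hYA'
  have hW : genSub (im A) (im B) (im Y) ≤ im (genSub A B Y) := by
    refine iSup_le fun ⟨B₁, hB₁, hB₁c⟩ => ?_
    let B₀ : Subgroup G := B ⊓ (B₁.comap π).map N.subtype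
    have hB₀B : B₀ ≤ B := inf_le_left
    have himB₀ : im B₀ ≤ B₁ := by
      rintro _ ⟨x, hx, rfl⟩
      obtain ⟨x', hx', hxx'⟩ := hx.2
      rwa [← show x' = x from Subtype.ext hxx']
    have hB₀c : ∀ [(B₀.subgroupOf B).Normal], IsCyclic (↥B ⧸ B₀.subgroupOf B) := by
      intro _
      haveI : IsMulCommutative ↥(im B) := ⟨⟨fun a b => Subtype.ext
        (comm_of_mem hAc' (Subgroup.map_mono (Subgroup.comap_mono hB) a.2)
          (Subgroup.map_mono (Subgroup.comap_mono hB) b.2))⟩⟩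
      haveI : (B₁.subgroupOf (im B)).Normal :=
        ⟨fun n hn g => by rw [mul_comm' g n, mul_inv_cancel_right]; exact hn⟩
      haveI := @hB₁c this
      let g : ↥B →* ↥(im B) ⧸ B₁.subgroupOf (im B) := (QuotientGroup.mk' _).comp
        ((π.comp (Subgroup.inclusion hBN)).codRestrict _ fun b => mem_im hBN b.2 (hBN b.2))
      have hker : g.ker = B₀.subgroupOf B := by
        ext b
        simp only [g, MonoidHom.mem_ker, MonoidHom.comp_apply, QuotientGroup.mk'_apply,
          QuotientGroup.eq_one_iff, Subgroup.mem_subgroupOf]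
        constructor
        · intro hb
          exact ⟨b.2, ⟨Subgroup.inclusion hBN b, hb, rfl⟩⟩
        · intro hb
          obtain ⟨x', hx', hxx'⟩ := hb.2
          have : x' = Subgroup.inclusion hBN b := Subtype.ext hxx'
          rw [this] at hx'
          exact hx'
      refine isCyclic_of_injective ((QuotientGroup.kerLift g).comp
        (QuotientGroup.quotientMulEquivOfEq hker.symm).toMonoidHom) ?_
      exact (QuotientGroup.kerLift_injective g).comp
        (QuotientGroup.quotientMulEquivOfEq hker.symm).injective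
    intro q hq
    let C₀ : Subgroup G := Y ⊓ Subgroup.centralizer (B₀ : Set G)
    let K : Subgroup G := ⁅C₀, A⁆
    have hAC₀ : A ≤ Subgroup.normalizer (C₀ : Set G) :=
      le_normalizer_inf_centralizer hAc hAY (hB₀B.trans hB)
    have hKC₀ : K ≤ C₀ := commutator_le_left hAC₀
    have hqK : q ∈ im K := by
      have hle : im Y ⊓ Subgroup.centralizer (B₁ : Set (N ⧸ M.subgroupOf N)) ≤ im C₀ :=
        (inf_le_inf le_rfl (centralizer_mono himB₀)).trans
          (hlift Y B₀ le_rfl (hB₀B.trans hB) hAY)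
      have h2 := Subgroup.commutator_mono hle (le_refl (im A)) hq.2
      rwa [← him_comm (inf_le_left.trans hYM) hAM] at h2
    obtain ⟨x, hx, hxq⟩ := hlift K B (hKC₀.trans inf_le_left) hB
      (le_sup_right.trans (sup_le_normalizer_commutator A _)) ⟨hqK, hq.1.2⟩
    exact ⟨x, le_genSub hB₀B hB₀c ⟨⟨(hKC₀ hx.1).1, hx.2⟩, hx.1⟩, hxq⟩
  intro x hx
  have hxN : x ∈ N := hYM hx.1
  have hq : π ⟨x, hxN⟩ ∈ im Y ⊓
      Subgroup.centralizer ((im B : Subgroup _) : Set (N ⧸ M.subgroupOf N)) := by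
    refine ⟨mem_im hYM hx.1 hxN, Subgroup.mem_centralizer_iff.mpr ?_⟩
    rintro _ ⟨b, hb, rfl⟩
    rw [← map_mul, ← map_mul]
    exact congrArg π (Subtype.ext (Subgroup.mem_centralizer_iff.mp hx.2 _ hb))
  obtain ⟨⟨w, hwN⟩, hw, hwx⟩ := hW (hres hq)
  have hm : w⁻¹ * x ∈ M :=
    (QuotientGroup.eq (s := M.subgroupOf N) (a := ⟨w, hwN⟩) (b := ⟨x, hxN⟩)).mp hwx
  simpa using Subgroup.mul_mem_sup (show w ∈ genSub A B Y from hw) hm

/-- The generation statement. -/
theorem inf_centralizer_le_genSub_aux : ∀ (n : ℕ) (G : Type u) [Group G] [Finite G]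
    (A B Y : Subgroup G), Nat.card Y = n → IsPGroup 2 ↥A → IsMulCommutative ↥A → B ≤ A →
    Group.IsSolvable ↥Y → Odd (Nat.card ↥Y) → A ≤ Subgroup.normalizer (Y : Set G) →
    ⁅Y, A⁆ = Y → Y ⊓ Subgroup.centralizer (B : Set G) ≤ genSub A B Y := by
  intro n
  induction n using Nat.strong_induction_on with
  | _ n IH =>
  intro G _ _ A B Y hn hA2 hAc hB hsol hodd hAY hYA
  subst hn
  haveI := hsol
  let W : Subgroup G := genSub A B Y
  have hWC : W ≤ Subgroup.centralizer (B : Set G) := (genSub_le A B Y).trans inf_le_right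
  by_cases hY : Y ≤ Subgroup.centralizer (Y : Set G)
  · have h := commutator_abelian_inf_le (Y := Y) hA2 hAc hB le_rfl
      (isMulCommutative_of_le_centralizer le_rfl hY) hodd hAY
    rwa [hYA] at h
  have hYbot : Y ≠ ⊥ := fun h => hY (h ▸ bot_le)
  have step : ∀ M : Subgroup G, M ≤ Y → M ≠ ⊥ → Y ≤ Subgroup.normalizer (M : Set G) →
      A ≤ Subgroup.normalizer (M : Set G) →
      Y ⊓ Subgroup.centralizer (B : Set G) ≤ W ⊔ M := fun M h1 h2 h3 h4 =>
    le_sup_of_quotient hA2 hB hsol hodd hAY hYA hAc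
      (fun H _ _ A' B' Y' hlt => IH _ hlt H A' B' Y' rfl) h1 h2 h3 h4
  have step' : ∀ M : Subgroup G, M ≤ Y → M ≠ ⊥ → Y ≤ Subgroup.normalizer (M : Set G) →
      A ≤ Subgroup.normalizer (M : Set G) → M ⊓ Subgroup.centralizer (B : Set G) ≤ W →
      Y ⊓ Subgroup.centralizer (B : Set G) ≤ W := by
    intro M h1 h2 h3 h4 h5 x hx
    have hxW := step M h1 h2 h3 h4 hx
    rw [← SetLike.mem_coe, Subgroup.coe_mul_of_left_le_normalizer_right W M
      (((genSub_le A B Y).trans inf_le_left).trans h3)] at hxW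
    obtain ⟨w, hw, m, hm, rfl⟩ := hxW
    refine W.mul_mem hw (h5 ⟨hm, ?_⟩)
    simpa using Subgroup.mul_mem _ (Subgroup.inv_mem _ (hWC hw)) hx.2
  -- an abelian normal invariant subgroup
  obtain ⟨V, hVY, hV, hVc, hVn⟩ := exists_abelian_invariant (S := Y ⊔ A) hsol hYbot
    (sup_le Subgroup.le_normalizer hAY)
  have hYV := le_sup_left.trans hVn
  have hAV := le_sup_right.trans hVn
  by_cases hVYc : ⁅V, Y⁆ = ⊥
  swap
  · have hMV : ⁅V, Y⁆ ≤ V := commutator_le_left hYV
    refine step' _ (hMV.trans hVY) hVYc (le_normalizer_commutator hYV Subgroup.le_normalizer)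
      (le_normalizer_commutator hAV hAY) ?_
    exact commutator_pairing_inf_le hA2 hAc hB hsol hodd hAY hYA hVY hYV hAV
      ⟨⟨fun a b => Subtype.ext (comm_of_mem hVc (hMV a.2) (hMV b.2))⟩⟩
      fun v hv => Subgroup.mem_centralizer_iff.mpr fun m hm => comm_of_mem hVc (hMV hm) hv
  have hVZ : V ≤ Subgroup.centralizer (Y : Set G) :=
    Subgroup.commutator_eq_bot_iff_le_centralizer.mp hVYc
  by_cases hVAc : ⁅V, A⁆ = ⊥
  swap
  · have hMV : ⁅V, A⁆ ≤ V := commutator_le_left hAV
    refine step' _ (hMV.trans hVY) hVAc ?_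
      (le_normalizer_commutator hAV Subgroup.le_normalizer)
      (commutator_abelian_inf_le hA2 hAc hB hVY hVc hodd hAV)
    intro y hy
    refine mem_normalizer_of_conj_mem fun m hm => ?_
    rw [Subgroup.mem_centralizer_iff.mp (hVZ (hMV hm)) y hy, mul_inv_cancel_right]
    exact hm
  have hVA : V ≤ Subgroup.centralizer (A : Set G) :=
    Subgroup.commutator_eq_bot_iff_le_centralizer.mp hVAc
  -- a central element of prime order fixed by `A`
  obtain ⟨p, hp, hpd⟩ := Nat.exists_prime_and_dvd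
    (fun h : Nat.card V = 1 => hV (Subgroup.card_eq_one.mp h))
  haveI : Fact p.Prime := ⟨hp⟩
  obtain ⟨v, hvo⟩ := exists_prime_orderOf_dvd_card' p hpd
  have hvo' : orderOf (v : G) = p := (Subgroup.orderOf_coe v).trans hvo
  obtain ⟨v, hvV⟩ := v
  replace hvo' : orderOf v = p := hvo'
  have hvY : v ∈ Y := hVY hvV
  have hvc : ∀ y ∈ Y, y * v = v * y := fun y hy =>
    Subgroup.mem_centralizer_iff.mp (hVZ hvV) y hy
  have hzY : Subgroup.zpowers v ≤ Y := Subgroup.zpowers_le.mpr hvY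
  have hzn : ∀ g : G, g * v = v * g →
      g ∈ Subgroup.normalizer ((Subgroup.zpowers v : Subgroup G) : Set G) := fun g hg =>
    mem_normalizer_of_conj_mem fun z hz => by
      obtain ⟨i, rfl⟩ := Subgroup.mem_zpowers_iff.mp hz
      rw [((show Commute g v from hg).zpow_right i).eq, mul_inv_cancel_right]
      exact hz
  have hz0 : Subgroup.zpowers v ≠ ⊥ := fun h => by
    rw [Subgroup.zpowers_eq_bot] at h
    rw [h, orderOf_one] at hvo'
    exact hp.ne_one hvo'.symm
  have hzA : A ≤ Subgroup.normalizer ((Subgroup.zpowers v : Subgroup G) : Set G) := fun a ha =>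
    hzn a (Subgroup.mem_centralizer_iff.mp (hVA hvV) a ha)
  have hYz : Y ≤ Subgroup.normalizer ((Subgroup.zpowers v : Subgroup G) : Set G) := fun y hy =>
    hzn y (hvc y hy)
  suffices hvW : v ∈ W from
    step' _ hzY hz0 hYz hzA (inf_le_left.trans (Subgroup.zpowers_le.mpr hvW))
  have hcop : (Nat.card A).Coprime (Nat.card Y) := coprime_card hA2 hodd
  -- `v ∈ [Y,Y]`
  have hvder : v ∈ ⁅Y, Y⁆ := by
    obtain ⟨n, hn, c, hc, hnc⟩ := commutator_sup_centralizer_aux hAY hcop (Or.inr hsol) hvY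
    let D : Subgroup G := ⁅Y, Y⁆
    let N : Subgroup G := Subgroup.normalizer (D : Set G)
    have hYN : Y ≤ N := le_normalizer_commutator Subgroup.le_normalizer Subgroup.le_normalizer
    have hAN : A ≤ N := le_normalizer_commutator hAY hAY
    let π : N →* N ⧸ D.subgroupOf N := QuotientGroup.mk' _
    let Y' : Subgroup (N ⧸ D.subgroupOf N) := (Y.subgroupOf N).map π
    let A' : Subgroup (N ⧸ D.subgroupOf N) := (A.subgroupOf N).map π
    haveI : IsMulCommutative ↥Y' := ⟨⟨by
      rintro ⟨_, a, ha, rfl⟩ ⟨_, b, hb, rfl⟩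
      refine Subtype.ext ?_
      show π a * π b = π b * π a
      rw [← map_mul, ← map_mul]
      refine QuotientGroup.eq.mpr ?_
      rw [Subgroup.mem_subgroupOf]
      have := Subgroup.commutator_mem_commutator (Y.inv_mem hb) (Y.inv_mem ha)
      simpa [commutatorElement_def, mul_assoc] using this⟩⟩
    have hnorm : A' ≤ Subgroup.normalizer (Y' : Set (N ⧸ D.subgroupOf N)) := by
      rintro _ ⟨a, ha, rfl⟩
      refine mem_normalizer_of_conj_mem ?_
      rintro _ ⟨y, hy, rfl⟩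
      exact ⟨a * y * a⁻¹, show ((a * y * a⁻¹ : N) : G) ∈ Y from conj_mem (hAY ha) hy, by simp⟩
    have hcop' : (Nat.card A').Coprime (Nat.card Y') := by
      refine Nat.Coprime.coprime_dvd_left ((Subgroup.card_map_dvd _ _).trans
        (Nat.card_congr (Subgroup.subgroupOfEquivOfLe hAN).toEquiv).dvd) ?_
      exact hcop.coprime_dvd_right ((Subgroup.card_map_dvd _ _).trans
        (Nat.card_congr (Subgroup.subgroupOfEquivOfLe hYN).toEquiv).dvd)
    have hcomm : ⁅Y', A'⁆ = Y' := by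
      have : (⁅Y, A⁆).subgroupOf N = ⁅Y.subgroupOf N, A.subgroupOf N⁆ := by
        apply Subgroup.map_injective N.subtype_injective
        rw [Subgroup.map_commutator, Subgroup.map_subgroupOf_eq_of_le hYN,
          Subgroup.map_subgroupOf_eq_of_le hAN, hYA, Subgroup.map_subgroupOf_eq_of_le hYN]
      rw [← Subgroup.map_commutator, ← this, hYA]
    have hbot := inf_commutator_eq_bot hnorm hcop'
    rw [hcomm] at hbot
    have hq : π ⟨v, hYN hvY⟩ ∈ Y' := ⟨_, hvY, rfl⟩
    have hqC : π ⟨v, hYN hvY⟩ ∈ Subgroup.centralizer (A' : Set (N ⧸ D.subgroupOf N)) := by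
      refine Subgroup.mem_centralizer_iff.mpr ?_
      rintro _ ⟨a, ha, rfl⟩
      rw [← map_mul, ← map_mul]
      exact congrArg π (Subtype.ext (Subgroup.mem_centralizer_iff.mp (hVA hvV) _ ha))
    exact (QuotientGroup.eq_one_iff (N := D.subgroupOf N) (⟨v, hYN hvY⟩ : N)).mp (Subgroup.mem_bot.mp (hbot.le ⟨⟨hq, hqC⟩, hq⟩))
  obtain ⟨P, hAP⟩ := exists_invariant_sylow hAY hcop (Or.inr hsol) p
  let P' : Subgroup G := (P : Subgroup Y).map Y.subtype
  have hP'Y : P' ≤ Y := Subgroup.map_subtype_le _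
  by_cases hPY : (P : Subgroup Y) = ⊤
  · -- `Y` is a `p`-group: use the second centre
    have hpY : IsPGroup p ↥Y := (hPY ▸ P.isPGroup').of_equiv Subgroup.topEquiv
    obtain ⟨L, hLc, hL0, hLz⟩ := exists_second_centre hpY hY
    haveI := hLc
    have hmap : ⁅L.map Y.subtype, Y⁆ = ⁅L, (⊤ : Subgroup Y)⁆.map Y.subtype := by
      rw [Subgroup.map_commutator, ← MonoidHom.range_eq_map, Subgroup.range_subtype]
    have hLY : L.map Y.subtype ≤ Y := Subgroup.map_subtype_le _
    have hMC : ⁅L.map Y.subtype, Y⁆ ≤ Subgroup.centralizer (Y : Set G) := by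
      rw [hmap]
      rintro _ ⟨z, hz, rfl⟩
      exact Subgroup.mem_centralizer_iff.mpr fun y hy =>
        congrArg Subtype.val (Subgroup.mem_center_iff.mp (hLz hz) ⟨y, hy⟩)
    have hMY : ⁅L.map Y.subtype, Y⁆ ≤ Y := by rw [hmap]; exact Subgroup.map_subtype_le _
    have hM0 : ⁅L.map Y.subtype, Y⁆ ≠ ⊥ := by
      rw [hmap, Ne, Subgroup.map_eq_bot_iff_of_injective _ Y.subtype_injective]
      exact hL0
    have hYL : Y ≤ Subgroup.normalizer ((L.map Y.subtype : Subgroup G) : Set G) :=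
      Subgroup.le_normalizer.trans (le_normalizer_map_of_characteristic L)
    have hAL := hAY.trans (le_normalizer_map_of_characteristic L)
    have hMle := commutator_pairing_inf_le hA2 hAc hB hsol hodd hAY hYA hLY hYL hAL
      (isMulCommutative_of_le_centralizer hMY hMC)
      (fun l hl => Subgroup.mem_centralizer_iff.mpr fun m hm =>
        (Subgroup.mem_centralizer_iff.mp (hMC hm) l (hLY hl)).symm)
    exact step' _ hMY hM0 (le_normalizer_commutator hYL Subgroup.le_normalizer)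
      (le_normalizer_commutator hAL hAY) hMle
      ⟨hvY, centralizer_mono hB (hVA hvV)⟩
  · -- otherwise use transfer and induction in an invariant Sylow subgroup
    let vY : Y := ⟨v, hvY⟩
    have hvcY : ∀ y : Y, y * vY = vY * y := fun y => Subtype.ext (hvc y y.2)
    have hzp : IsPGroup p ↥(Subgroup.zpowers vY) := by
      refine IsPGroup.of_card (n := 1) ?_
      rw [Nat.card_zpowers, pow_one]
      exact (Subgroup.orderOf_coe vY).symm.trans hvo'
    have hvP : vY ∈ (P : Subgroup Y) := by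
      have hn : (P : Subgroup Y) ≤ Subgroup.normalizer ((Subgroup.zpowers vY : Subgroup Y) : Set Y) :=
        fun y _ => mem_normalizer_of_conj_mem fun z hz => by
          obtain ⟨i, rfl⟩ := Subgroup.mem_zpowers_iff.mp hz
          rw [((show Commute y vY from hvcY y).zpow_right i).eq, mul_inv_cancel_right]
          exact hz
      have h := P.is_maximal' (P.isPGroup'.to_sup_of_normal_right' hzp hn) le_sup_left
      exact h.le (Subgroup.mem_sup_right (Subgroup.mem_zpowers vY))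
    have hvPP : v ∈ ⁅P', P'⁆ := by
      have key : ∀ (k : ℕ) (g₀ : Y), g₀⁻¹ * vY ^ k * g₀ ∈ (P : Subgroup Y) →
          g₀⁻¹ * vY ^ k * g₀ = vY ^ k := fun k g₀ _ => by
        rw [mul_assoc, ← ((show Commute g₀ vY from hvcY g₀).pow_right k).eq, inv_mul_cancel_left]
      let φ : ↥(P : Subgroup Y) →* Abelianization ↥(P : Subgroup Y) := Abelianization.of
      have hvc' : vY ∈ commutator ↥Y := by
        have h : v ∈ (commutator ↥Y).map Y.subtype := by
          rw [Subgroup.map_subtype_commutator]; exact hvder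
        obtain ⟨z, hz, hzv⟩ := h
        rwa [← show z = vY from Subtype.ext hzv]
      have h1 : MonoidHom.transfer φ vY = 1 := Abelianization.commutator_subset_ker _ hvc'
      rw [MonoidHom.transfer_eq_pow φ vY key, ← MonoidHom.mem_ker] at h1
      simp only [φ, Abelianization.ker_of] at h1
      have hc : (P : Subgroup Y).index.Coprime (orderOf v) := by
        rw [hvo']
        exact (hp.coprime_iff_not_dvd.mpr P.not_dvd_index).symm
      obtain ⟨m, hm⟩ := exists_pow_eq_self_of_coprime hc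
      rw [← hm]
      refine pow_mem ?_ m
      have h2 := Subgroup.mem_map_of_mem Y.subtype
        (Subgroup.mem_map_of_mem (P : Subgroup Y).subtype h1)
      rw [Subgroup.map_subtype_commutator, Subgroup.map_commutator] at h2
      simpa using h2
    have hP'c : Nat.card P' < Nat.card Y := by
      rw [← Nat.card_congr (Subgroup.equivMapOfInjective (P : Subgroup Y) _
        Y.subtype_injective).toEquiv]
      refine lt_of_le_of_ne (Subgroup.card_le_card_group _) fun h => hPY ?_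
      exact Subgroup.eq_top_of_card_eq _ h
    let K : Subgroup G := ⁅P', A⁆
    let C : Subgroup G := P' ⊓ Subgroup.centralizer (A : Set G)
    have hKP : K ≤ P' := commutator_le_left hAP
    have hcopP : (Nat.card A).Coprime (Nat.card P') :=
      coprime_card hA2 (odd_of_le hP'Y hodd)
    have hsolP : Group.IsSolvable ↥P' := isSolvable_of_le hP'Y
    have hKW : K ⊓ Subgroup.centralizer (B : Set G) ≤ W :=
      (IH _ ((Subgroup.card_le_of_le hKP).trans_lt hP'c) G A B K rfl hA2 hAc hB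
        (isSolvable_of_le (hKP.trans hP'Y)) (odd_of_le (hKP.trans hP'Y) hodd)
        (le_sup_right.trans (sup_le_normalizer_commutator A P'))
        (commutator_commutator_eq hAP hcopP (Or.inr hsolP))).trans
        (genSub_mono A B (hKP.trans hP'Y))
    have hKn : P' ≤ Subgroup.normalizer (K : Set G) :=
      le_sup_left.trans (sup_le_normalizer_commutator A P')
    have hmod : ⁅P', P'⁆ ≤ K ⊔ ⁅C, C⁆ := by
      let N : Subgroup G := Subgroup.normalizer (K : Set G)
      haveI : (K.subgroupOf N).Normal := Subgroup.normal_in_normalizer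
      let π : N →* N ⧸ K.subgroupOf N := QuotientGroup.mk' _
      refine Subgroup.commutator_le.mpr fun a ha b hb => ?_
      obtain ⟨n, hn, c, hc, rfl⟩ := commutator_sup_centralizer_aux hAP hcopP (Or.inr hsolP) ha
      obtain ⟨n', hn', c', hc', rfl⟩ := commutator_sup_centralizer_aux hAP hcopP (Or.inr hsolP) hb
      have hnN : n ∈ N := hKn (hKP hn)
      have hn'N : n' ∈ N := hKn (hKP hn')
      have hcN : c ∈ N := hKn hc.1
      have hc'N : c' ∈ N := hKn hc'.1
      have h1 : π ⟨n, hnN⟩ = 1 := (QuotientGroup.eq_one_iff _).mpr hn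
      have h2 : π ⟨n', hn'N⟩ = 1 := (QuotientGroup.eq_one_iff _).mpr hn'
      have h : π (⁅(⟨n, hnN⟩ : N) * ⟨c, hcN⟩, ⟨n', hn'N⟩ * ⟨c', hc'N⟩⁆ *
          ⁅(⟨c, hcN⟩ : N), ⟨c', hc'N⟩⁆⁻¹) = 1 := by
        rw [map_mul, map_inv, map_commutatorElement, map_commutatorElement, map_mul, map_mul, h1,
          h2, one_mul, one_mul, mul_inv_cancel]
      have hk : ⁅n * c, n' * c'⁆ * ⁅c, c'⁆⁻¹ ∈ K :=
        (QuotientGroup.eq_one_iff (N := K.subgroupOf N) _).mp h
      have := Subgroup.mul_mem_sup hk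
        (Subgroup.commutator_mem_commutator (H₁ := C) (H₂ := C) hc hc')
      rwa [inv_mul_cancel_right] at this
    have hCC : ⁅C, C⁆ ≤ W := by
      refine Subgroup.commutator_le.mpr fun c hc c' hc' => ?_
      have hn : Subgroup.zpowers v ≤ Subgroup.normalizer (W : Set G) := by
        intro z hz
        refine mem_normalizer_of_conj_mem fun y hy => ?_
        obtain ⟨i, rfl⟩ := Subgroup.mem_zpowers_iff.mp hz
        rw [← ((show Commute y v from hvc y ((genSub_le A B Y hy).1)).zpow_right i).eq,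
          mul_inv_cancel_right]
        exact hy
      have hdec : ∀ d ∈ C, ∃ w ∈ W, ∃ i : ℤ, d = w * v ^ i := fun d hd => by
        have h := step _ hzY hz0 hYz hzA ⟨hP'Y hd.1, centralizer_mono hB hd.2⟩
        rw [← SetLike.mem_coe, Subgroup.coe_mul_of_right_le_normalizer_left W _ hn] at h
        obtain ⟨w, hw, z, hz, rfl⟩ := h
        obtain ⟨i, rfl⟩ := Subgroup.mem_zpowers_iff.mp hz
        exact ⟨w, hw, i, rfl⟩
      obtain ⟨w, hw, i, rfl⟩ := hdec c hc
      obtain ⟨w', hw', j, rfl⟩ := hdec c' hc'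
      have hcv : ∀ (y : G), y ∈ Y → ∀ i : ℤ, v ^ i * y = y * v ^ i := fun y hy i =>
        (((show Commute y v from hvc y hy).zpow_right i).symm).eq
      have hwY := (genSub_le A B Y hw).1
      have hw'Y := (genSub_le A B Y hw').1
      have : ⁅w * v ^ i, w' * v ^ j⁆ = ⁅w, w'⁆ := by
        have e1 : v ^ i * (w' * v ^ j) * (v ^ i)⁻¹ = w' * v ^ j := by
          rw [hcv _ (Y.mul_mem hw'Y (Y.zpow_mem hvY j)) i, mul_inv_cancel_right]
        have e2 : v ^ j * w⁻¹ * (v ^ j)⁻¹ = w⁻¹ := by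
          rw [hcv _ (Y.inv_mem hwY) j, mul_inv_cancel_right]
        calc ⁅w * v ^ i, w' * v ^ j⁆
            = w * (v ^ i * (w' * v ^ j) * (v ^ i)⁻¹) * w⁻¹ * (w' * v ^ j)⁻¹ := by
              simp [commutatorElement_def, mul_assoc]
          _ = w * w' * (v ^ j * w⁻¹ * (v ^ j)⁻¹) * w'⁻¹ := by rw [e1]; simp [mul_assoc]
          _ = _ := by rw [e2]; simp [commutatorElement_def, mul_assoc]
      rw [this]
      exact W.mul_mem (W.mul_mem (W.mul_mem hw hw') (W.inv_mem hw)) (W.inv_mem hw')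
    have hv2 := hmod hvPP
    have hCK : ⁅C, C⁆ ≤ Subgroup.normalizer (K : Set G) :=
      (Subgroup.commutator_mono inf_le_left inf_le_left).trans
        ((commutator_le_left Subgroup.le_normalizer).trans hKn)
    rw [← SetLike.mem_coe, Subgroup.coe_mul_of_right_le_normalizer_left K _ hCK] at hv2
    obtain ⟨k, hk, d, hd, hkd⟩ := hv2
    change k * d = v at hkd
    have hvB : v ∈ Subgroup.centralizer (B : Set G) := centralizer_mono hB (hVA hvV)
    have hk' : k ∈ W := hKW ⟨hk, by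
      rw [eq_mul_inv_of_mul_eq hkd]
      exact Subgroup.mul_mem _ hvB (Subgroup.inv_mem _ (hWC (hCC hd)))⟩
    exact hkd ▸ W.mul_mem hk' (hCC hd)

/-- `C_Y(B)` is generated by the groups `C_Y(B) ∩ [C_Y(B₀),A]` with `B/B₀` cyclic. -/
theorem inf_centralizer_eq_genSub {G : Type u} [Group G] [Finite G] {A B Y : Subgroup G}
    (hA2 : IsPGroup 2 ↥A) (hAc : IsMulCommutative ↥A) (hB : B ≤ A)
    (hsol : Group.IsSolvable ↥Y) (hodd : Odd (Nat.card ↥Y))
    (hAY : A ≤ Subgroup.normalizer (Y : Set G)) (hYA : ⁅Y, A⁆ = Y) :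
    Y ⊓ Subgroup.centralizer (B : Set G) = genSub A B Y :=
  le_antisymm (inf_centralizer_le_genSub_aux _ G A B Y rfl hA2 hAc hB hsol hodd hAY hYA)
    (genSub_le A B Y)

end CfsgLib.Signalizer.CoprimeGen
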