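import Cfsg.Prelude.Def_Balance
import Cfsg.Agent.Lib.Signalizer.CompTools
import Cfsg.Agent.Lib.Signalizer.CoprimeGenerationMain
import Cfsg.Agent.Lib.Balance.ComponentNormal
import Cfsg.Agent.Lib.Balance.ConnectedFunctor
import Cfsg.Agent.Lib.LBalance.Local

/-!
The signalizer functor of a core-separated pair of four-groups, assuming that the groups of odd
order involved are solvable.
-/

set_option autoImplicit false
set_option linter.style.haveILetI false

open scoped commutatorElement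

namespace CfsgLib.Signalizer.CoreSep

open Cfsg CfsgLib.CoprimeAction CfsgLib.Signalizer.CoprimeGen

universe u

variable {G : Type u} [Group G]

/-- `O(C(A'))` inside `G`. -/
abbrev centCore (A' : Subgroup G) : Subgroup G :=
  (oddCore ↥(Subgroup.centralizer ((A' : Subgroup G) : Set G))).map
    (Subgroup.centralizer ((A' : Subgroup G) : Set G)).subtype

/-- `[O_a,A'] (O_a ∩ O(C(A')))`. -/
abbrev part (A' : Subgroup G) (a : G) : Subgroup G :=
  ⁅centralizerPPrimeCore 2 a, A'⁆ ⊔ (centralizerPPrimeCore 2 a ⊓ centCore A')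

variable [Finite G]

theorem mem_centralizer_of_perfect_odd {X : Type u} [Group X] [Finite X]
    (hO : pPrimeCore 2 X = ⊥) {F M : Subgroup X} (hF : IsComponent F)
    (hM : (Nat.card M).Coprime 2) (hFM : F ≤ Subgroup.normalizer (M : Set X)) {d : X} (hd : d ∈ M)
    (hdF : d ∈ Subgroup.normalizer (F : Set X)) : d ∈ Subgroup.centralizer (F : Set X) := by
  haveI : Fact (Nat.Prime 2) := ⟨Nat.prime_two⟩
  have hinf : F ⊓ M ≤ Subgroup.centralizer (F : Set X) :=
    (CfsgLib.Balance.eq_or_le_centralizer_of_normalized hF inf_le_left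
      fun f hf => mem_normalizer_of_conj_mem fun z hz =>
        ⟨conj_mem (Subgroup.le_normalizer hf) hz.1, conj_mem (hFM hf) hz.2⟩).resolve_left
      fun h => CfsgLib.Balance.not_coprime_card_component hO hF
        (hM.coprime_dvd_left (Subgroup.card_dvd_of_le (h ▸ (inf_le_right : F ⊓ M ≤ M))))
  have h1 : ⁅F, Subgroup.zpowers d⁆ ≤ Subgroup.centralizer (F : Set X) := by
    refine le_trans (le_inf (commutator_le_left (Subgroup.zpowers_le.2 hdF)) ?_) hinf
    refine Subgroup.commutator_le.mpr fun f hf z hz => ?_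
    have hzM : z ∈ M := Subgroup.zpowers_le.2 hd hz
    rw [commutatorElement_def]
    exact M.mul_mem (conj_mem (hFM hf) hzM) (M.inv_mem hzM)
  have h2 := CfsgLib.Balance.commutator_eq_bot_of_le_centralizer
    (CfsgLib.Cores.commutator_self_eq_of_isComponent hF) h1
  exact Subgroup.le_centralizer_iff.1 (Subgroup.commutator_eq_bot_iff_le_centralizer.1 h2)
    (Subgroup.mem_zpowers d)

theorem commutator_le_centralizer {K A' F : Subgroup G}
    (hK : K ≤ Subgroup.normalizer (F : Set G)) (hA : A' ≤ Subgroup.centralizer (F : Set G)) :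
    ⁅K, A'⁆ ≤ Subgroup.centralizer (F : Set G) := by
  refine Subgroup.commutator_le.mpr fun k hk a ha => ?_
  have h := Subgroup.mul_mem (Subgroup.centralizer (F : Set G))
    (show k * a * k⁻¹ ∈ Subgroup.centralizer (F : Set G) from ?_) (Subgroup.inv_mem _ (hA ha))
  · simpa [commutatorElement_def] using h
  refine Subgroup.mem_centralizer_iff.mpr fun f hf => ?_
  have hc := Subgroup.mem_centralizer_iff.mp (hA ha) _ (conj_mem' (hK hk) hf)
  calc f * (k * a * k⁻¹) = k * (k⁻¹ * f * k * a) * k⁻¹ := by simp [mul_assoc]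
    _ = k * (a * (k⁻¹ * f * k)) * k⁻¹ := by rw [hc]
    _ = _ := by simp [mul_assoc]

theorem odd_card_core (a : G) : Odd (Nat.card ↥(centralizerPPrimeCore 2 a)) :=
  Nat.coprime_two_right.mp (CfsgLib.Balance.coprime_card_centralizerPPrimeCore 2 a)

/-- The image of `O(C(a))` in a centralizer modulo its core lies in the core of the image of `a`. -/
theorem map_core_le {H : Subgroup G} {a : G} (haH : a ∈ H) (ha : a * a = 1) :
    ((centralizerPPrimeCore 2 a).subgroupOf H).map (QuotientGroup.mk' (pPrimeCore 2 ↥H)) ≤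
      centralizerPPrimeCore 2 (QuotientGroup.mk' (pPrimeCore 2 ↥H) ⟨a, haH⟩) := by
  haveI : Fact (Nat.Prime 2) := ⟨Nat.prime_two⟩
  set π := QuotientGroup.mk' (pPrimeCore 2 ↥H) with hπ
  have ha2 : IsTwoElt (⟨a, haH⟩ : ↥H) := isTwoElt_of_sq (Subtype.ext ha)
  refine CfsgLib.Balance.le_centralizerPPrimeCore ?_ ?_ ?_
  · rintro _ ⟨x, hx, rfl⟩
    refine Subgroup.mem_centralizer_singleton_iff.mpr ?_
    rw [← map_mul, ← map_mul]
    exact congrArg π (Subtype.ext (Subgroup.mem_centralizer_singleton_iff.mp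
      (CfsgLib.Balance.centralizerPPrimeCore_le_centralizer 2 a hx)))
  · rw [← map_centralizer_singleton ha2]
    rintro _ ⟨c, hc, rfl⟩
    refine mem_normalizer_of_conj_mem ?_
    rintro _ ⟨x, hx, rfl⟩
    refine ⟨c * x * c⁻¹, ?_, by simp [hπ]⟩
    show ((c * x * c⁻¹ : ↥H) : G) ∈ centralizerPPrimeCore 2 a
    have hc' : (c : G) ∈ Subgroup.centralizer ({a} : Set G) :=
      Subgroup.mem_centralizer_singleton_iff.mpr
        (congrArg Subtype.val (Subgroup.mem_centralizer_singleton_iff.mp hc))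
    exact conj_mem (CfsgLib.Balance.centralizer_le_normalizer_centralizerPPrimeCore 2 a hc') hx
  · refine Nat.Coprime.coprime_dvd_left ((Subgroup.card_map_dvd _ _).trans
      (Subgroup.card_comap_dvd_of_injective _ _ H.subtype_injective))
      (CfsgLib.Balance.coprime_card_centralizerPPrimeCore 2 a)

theorem orderOf_image {H : Subgroup G} {a : G} (haH : a ∈ H) (ha : a * a = 1) (ha1 : a ≠ 1) :
    orderOf (QuotientGroup.mk' (pPrimeCore 2 ↥H) ⟨a, haH⟩) = 2 := by
  haveI : Fact (Nat.Prime 2) := ⟨Nat.prime_two⟩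
  refine orderOf_eq_prime ?_ fun h => ha1 ?_
  · rw [← map_pow]
    convert map_one (QuotientGroup.mk' (pPrimeCore 2 ↥H))
    exact Subtype.ext (by simpa [pow_two] using ha)
  · exact congrArg Subtype.val
      (eq_one_of_mem_core (isTwoElt_of_sq (Subtype.ext ha)) ((QuotientGroup.eq_one_iff _).mp h))

/-- An element of `O(C(a))` in `H` centralizing all components of `H/O(H)` lies in `O(H)`. -/
theorem mem_core_of_components {H : Subgroup G} {a : G} (haH : a ∈ H) (ha : a * a = 1)
    (ha1 : a ≠ 1) {y : ↥H} (hy : (y : G) ∈ centralizerPPrimeCore 2 a)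
    (hK : ∀ F : Subgroup (↥H ⧸ pPrimeCore 2 ↥H), IsComponent F →
      QuotientGroup.mk' (pPrimeCore 2 ↥H) y ∈
        Subgroup.centralizer (F : Set (↥H ⧸ pPrimeCore 2 ↥H))) :
    y ∈ pPrimeCore 2 ↥H := by
  haveI : Fact (Nat.Prime 2) := ⟨Nat.prime_two⟩
  have hO := CfsgLib.Cores.pPrimeCore_quotient_pPrimeCore (G := ↥H) 2
  have hy' := map_core_le haH ha ⟨y, hy, rfl⟩
  refine (QuotientGroup.eq_one_iff y).mp ?_
  exact CfsgLib.LBalance.eq_one_of_centralizes hO
    ((CfsgLib.Balance.coprime_card_centralizerPPrimeCore 2 _).coprime_dvd_left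
      (Subgroup.orderOf_dvd_natCard _ hy'))
    (CfsgLib.Balance.centralizerPPrimeCore_le_centralizer_pCore (orderOf_image haH ha ha1) hy') hK

/-- L-balance: `L(C(A'))` lies in `L(C(α))` for `α ∈ A'`. -/
theorem pLayer_centralizer_mem {A' : Subgroup G} (hA2 : IsPGroup 2 ↥A') {α : G}
    (hA' : A' ≤ Subgroup.centralizer ({α} : Set G))
    (hD : Subgroup.centralizer (A' : Set G) ≤ Subgroup.centralizer ({α} : Set G))
    {e : ↥(Subgroup.centralizer (A' : Set G))}
    (he : e ∈ pLayer 2 ↥(Subgroup.centralizer (A' : Set G))) :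
    (⟨e, hD e.2⟩ : ↥(Subgroup.centralizer ({α} : Set G))) ∈
      pLayer 2 ↥(Subgroup.centralizer ({α} : Set G)) := by
  let C := Subgroup.centralizer ({α} : Set G)
  let D := Subgroup.centralizer (A' : Set G)
  let T : Subgroup ↥C := A'.subgroupOf C
  have hT : IsPGroup 2 ↥T := hA2.comap_of_injective C.subtype C.subtype_injective
  have hmem : ∀ x : ↥C, x ∈ Subgroup.centralizer (T : Set ↥C) ↔ (x : G) ∈ D := fun x => by
    simp only [D, Subgroup.mem_centralizer_iff]
    exact ⟨fun h t ht => congrArg Subtype.val (h ⟨t, hA' ht⟩ ht),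
      fun h t ht => Subtype.ext (h t ht)⟩
  let e' : ↥D ≃* ↥(Subgroup.centralizer (T : Set ↥C)) :=
    { toFun := fun d => ⟨⟨d, hD d.2⟩, (hmem _).mpr d.2⟩
      invFun := fun x => ⟨(x : ↥C), (hmem _).mp x.2⟩
      left_inv := fun _ => rfl
      right_inv := fun _ => rfl
      map_mul' := fun _ _ => rfl }
  have h := CfsgLib.Balance.pLayer_centralizer_le_two zStarTheorem.{u} hT
  refine h ⟨e' e, ?_, rfl⟩
  rw [← map_pLayer_equiv e']
  exact ⟨e, he, rfl⟩

theorem elemAb_sq {p : Subgroup G} (h : IsElementaryAbelian 2 p) {a : G} (ha : a ∈ p) :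
    a * a = 1 := by simpa [pow_two] using h.2 a ha

variable {A' A'' : Subgroup G}

/-- The four-group hypothesis on one side. -/
structure Setting (A' A'' : Subgroup G) : Prop where
  left : IsElementaryAbelian 2 A'
  right : IsElementaryAbelian 2 A''
  card : Nat.card ↥A' = 4
  comm : ∀ x ∈ A', ∀ y ∈ A'', x * y = y * x
  sep : ∀ a ∈ A' ⊔ A'', a ≠ 1 → ∀ E : Subgroup ↥(Subgroup.centralizer ({a} : Set G)),
    IsPComponent 2 E →
    ⁅E.map (Subgroup.centralizer ({a} : Set G)).subtype, A'⁆ ≤ centralizerPPrimeCore 2 a ∨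
    ⁅E.map (Subgroup.centralizer ({a} : Set G)).subtype, A''⁆ ≤ centralizerPPrimeCore 2 a

namespace Setting

theorem elem (h : Setting A' A'') : IsElementaryAbelian 2 (A' ⊔ A'' : Subgroup G) :=
  CfsgLib.Balance.isElementaryAbelian_sup h.left h.right h.comm

theorem le_centralizer (h : Setting A' A'') {a : G} (ha : a ∈ A' ⊔ A'') :
    A' ⊔ A'' ≤ Subgroup.centralizer ({a} : Set G) := fun _ hx =>
  Subgroup.mem_centralizer_singleton_iff.mpr (comm_of_mem h.elem.1 hx ha)

theorem component_cases (h : Setting A' A'') {b : G} (hb : b ∈ A' ⊔ A'') (hb1 : b ≠ 1)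
    {F : Subgroup (↥(Subgroup.centralizer ({b} : Set G)) ⧸
      pPrimeCore 2 ↥(Subgroup.centralizer ({b} : Set G)))}
    (hF : IsComponent F) :
    (A'.subgroupOf (Subgroup.centralizer ({b} : Set G))).map (QuotientGroup.mk'
          (pPrimeCore 2 ↥(Subgroup.centralizer ({b} : Set G)))) ≤
        Subgroup.centralizer (F : Set _) ∨
      (A''.subgroupOf (Subgroup.centralizer ({b} : Set G))).map (QuotientGroup.mk'
          (pPrimeCore 2 ↥(Subgroup.centralizer ({b} : Set G)))) ≤
        Subgroup.centralizer (F : Set _) := by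
  haveI : Fact (Nat.Prime 2) := ⟨Nat.prime_two⟩
  let C := Subgroup.centralizer ({b} : Set G)
  obtain ⟨E, hE, hEF⟩ : ∃ E : Subgroup ↥C, IsPComponent 2 E ∧
      E.map (QuotientGroup.mk' (pPrimeCore 2 ↥C)) = F :=
    ⟨_, (CfsgLib.LBalance.isPComponent_pElemClosure hF).1,
      (CfsgLib.LBalance.isPComponent_pElemClosure hF).2⟩
  have key : ∀ A₀ : Subgroup G, ⁅E.map C.subtype, A₀⁆ ≤ centralizerPPrimeCore 2 b →
      (A₀.subgroupOf C).map (QuotientGroup.mk' _) ≤
        Subgroup.centralizer (F : Set (↥C ⧸ pPrimeCore 2 ↥C)) := by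
    intro A₀ hle
    rintro _ ⟨z, hz, rfl⟩
    rw [← hEF]
    refine Subgroup.mem_centralizer_iff.mpr ?_
    rintro _ ⟨e, he, rfl⟩
    obtain ⟨c, hc, hce⟩ := hle (Subgroup.commutator_mem_commutator
      (Subgroup.mem_map_of_mem C.subtype he) hz)
    have hcO : ⁅e, z⁆ ∈ pPrimeCore 2 ↥C := by
      have : c = ⁅e, z⁆ := C.subtype_injective (hce.trans (map_commutatorElement _ _ _).symm)
      exact this ▸ hc
    rw [← commutatorElement_eq_one_iff_mul_comm, ← map_commutatorElement]
    exact (QuotientGroup.eq_one_iff _).mpr hcO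
  exact (h.sep b hb hb1 E hE).imp (key A') (key A'')

/-- `C(A') ∩ [O(C(a)),A'] ≤ O(C(A'))`. -/
theorem fixed_le_centCore (h : Setting A' A'')
    (hsol : ∀ Y : Subgroup G, Odd (Nat.card Y) → Group.IsSolvable Y) {a : G}
    (ha : a ∈ A' ⊔ A'') (ha1 : a ≠ 1) :
    ⁅centralizerPPrimeCore 2 a, A'⁆ ⊓ Subgroup.centralizer (A' : Set G) ≤ centCore A' := by
  haveI : Fact (Nat.Prime 2) := ⟨Nat.prime_two⟩
  have hle : ∀ {x : G}, x ∈ A' ⊔ A'' → A' ⊔ A'' ≤ Subgroup.centralizer ({x} : Set G) :=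
    fun hx => h.le_centralizer hx
  set O := centralizerPPrimeCore 2 a
  have hA2 : IsPGroup 2 ↥A' := CfsgLib.Balance.elemAb_isPGroup h.left
  have hAO : A' ≤ Subgroup.normalizer (O : Set G) := (le_sup_left.trans (hle ha)).trans
    (CfsgLib.Balance.centralizer_le_normalizer_centralizerPPrimeCore 2 a)
  have hYO : ⁅O, A'⁆ ≤ O := commutator_le_left hAO
  have hYodd : Odd (Nat.card ↥⁅O, A'⁆) := odd_of_le hYO (odd_card_core a)
  have hcop : (Nat.card A').Coprime (Nat.card O) := coprime_card hA2 (odd_card_core a)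
  have hAsol : Group.IsSolvable ↥A' := by
    haveI := h.left.1
    exact isSolvable_of_isMulCommutative A'
  rw [inf_centralizer_eq_genSub hA2 h.left.1 le_rfl (hsol _ hYodd) hYodd
    (le_sup_right.trans (sup_le_normalizer_commutator A' O))
    (commutator_commutator_eq hAO hcop (Or.inl hAsol))]
  refine iSup_le fun ⟨B₀, hB₀, hB₀c⟩ => ?_
  obtain ⟨α, hαB, hα1⟩ : ∃ α ∈ B₀, α ≠ 1 := by
    rcases Subgroup.bot_or_exists_ne_one B₀ with rfl | h'
    · exfalso
      haveI : ((⊥ : Subgroup G).subgroupOf A').Normal := by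
        rw [Subgroup.bot_subgroupOf]; infer_instance
      haveI := @hB₀c this
      refine CfsgLib.Balance.elemAb_not_isCyclic h.left (by rw [h.card]; norm_num) ?_
      exact ((QuotientGroup.quotientMulEquivOfEq (Subgroup.bot_subgroupOf A')).trans
        QuotientGroup.quotientBot).isCyclic.mp inferInstance
    · exact h'
  have hαA : α ∈ A' := hB₀ hαB
  have hαA0 : α ∈ A' ⊔ A'' := Subgroup.mem_sup_left hαA
  set C := Subgroup.centralizer ({α} : Set G) with hC
  set D := Subgroup.centralizer (A' : Set G) with hDdef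
  have hDC : D ≤ C := fun d hd => Subgroup.mem_centralizer_singleton_iff.mpr
    (Subgroup.mem_centralizer_iff.mp hd α hαA).symm
  rintro y ⟨⟨hyY, hyD⟩, hy⟩
  have hyK : y ∈ ⁅O ⊓ C, A'⁆ := by
    refine Subgroup.commutator_mono (le_inf (inf_le_left.trans hYO) ?_) le_rfl hy
    rintro z ⟨-, hz⟩
    exact Subgroup.mem_centralizer_singleton_iff.mpr
      (Subgroup.mem_centralizer_iff.mp hz α hαB).symm
  have haD : a ∈ D := Subgroup.mem_centralizer_iff.mpr fun x hx =>
    comm_of_mem h.elem.1 (Subgroup.mem_sup_left hx) ha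
  have haa : a * a = 1 := elemAb_sq h.elem ha
  have haC : a ∈ C := hDC haD
  have hyO : y ∈ O := hYO hyY
  refine ⟨⟨y, hyD⟩, mem_core_of_components haD haa ha1 hyO fun F hF => ?_, rfl⟩
  set q := QuotientGroup.mk' (pPrimeCore 2 ↥D) with hq
  have hOD := CfsgLib.Cores.pPrimeCore_quotient_pPrimeCore (G := ↥D) 2
  have hdcore := map_core_le haD haa ⟨⟨y, hyD⟩, hyO, rfl⟩
  by_cases hFa : ⁅F, Subgroup.zpowers (q ⟨a, haD⟩)⁆ = F
  swap
  · exact Subgroup.le_centralizer_iff.1 (Subgroup.commutator_eq_bot_iff_le_centralizer.1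
      (CfsgLib.Balance.commutator_component_core_eq_bot hOD (orderOf_image haD haa ha1) hF hFa))
      hdcore
  have hcov : F ≤ (⁅pLayer 2 ↥D, Subgroup.zpowers (⟨a, haD⟩ : ↥D)⁆).map q := by
    rw [Subgroup.map_commutator, CfsgLib.LBalance.map_pLayer, MonoidHom.map_zpowers]
    conv_lhs => rw [← hFa]
    exact Subgroup.commutator_mono (CfsgLib.Cores.le_layer hF) le_rfl
  suffices hcore : ∀ e ∈ pLayer 2 ↥D,
      ⁅⁅e, (⟨a, haD⟩ : ↥D)⁆, (⟨y, hyD⟩ : ↥D)⁆ ∈ pPrimeCore 2 ↥D by
    have h2 : (⁅pLayer 2 ↥D, Subgroup.zpowers (⟨a, haD⟩ : ↥D)⁆).map q ≤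
        Subgroup.centralizer ({q ⟨y, hyD⟩} : Set _) := by
      rw [Subgroup.map_le_iff_le_comap, Subgroup.commutator_le]
      intro e he z hz
      have hz' : z = 1 ∨ z = ⟨a, haD⟩ := by
        obtain ⟨i, rfl⟩ := Subgroup.mem_zpowers_iff.mp hz
        have h2 : (⟨a, haD⟩ : ↥D) ^ (2 : ℤ) = 1 := Subtype.ext (by simpa [zpow_two, pow_two] using haa)
        rcases Int.even_or_odd' i with ⟨k, rfl | rfl⟩
        · left; rw [zpow_mul, h2, one_zpow]
        · right; rw [zpow_add, zpow_mul, h2, one_zpow, one_mul, zpow_one]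
      rw [Subgroup.mem_comap, Subgroup.mem_centralizer_singleton_iff]
      rcases hz' with rfl | rfl
      · simp
      · refine commutatorElement_eq_one_iff_mul_comm.mp ?_
        rw [← map_commutatorElement]
        exact (QuotientGroup.eq_one_iff _).mpr (hcore e he)
    exact Subgroup.mem_centralizer_iff.mpr fun f hf =>
      Subgroup.mem_centralizer_singleton_iff.mp (h2 (hcov hf))
  -- in `C(α)` modulo its core
  intro e he
  set π := QuotientGroup.mk' (pPrimeCore 2 ↥C) with hπ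
  have hOC := CfsgLib.Cores.pPrimeCore_quotient_pPrimeCore (G := ↥C) 2
  have hA'C : A' ≤ C := le_sup_left.trans (hle hαA0)
  have hA''C : A'' ≤ C := le_sup_right.trans (hle hαA0)
  let I : Set (Subgroup (↥C ⧸ pPrimeCore 2 ↥C)) :=
    {F | IsComponent F ∧ (A'.subgroupOf C).map π ≤ Subgroup.centralizer (F : Set _)}
  let J : Set (Subgroup (↥C ⧸ pPrimeCore 2 ↥C)) :=
    {F | IsComponent F ∧ (A''.subgroupOf C).map π ≤ Subgroup.centralizer (F : Set _)}
  have hlayer : layer (↥C ⧸ pPrimeCore 2 ↥C) ≤ sSup I ⊔ sSup J := by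
    refine CfsgLib.Cores.layer_le_iff.2 fun F hF => ?_
    rcases h.component_cases hαA0 hα1 hF with h' | h'
    · exact (le_sSup (show F ∈ I from ⟨hF, h'⟩)).trans le_sup_left
    · exact (le_sSup (show F ∈ J from ⟨hF, h'⟩)).trans le_sup_right
  have hJI : sSup J ≤ Subgroup.normalizer ((sSup I : Subgroup _) : Set (↥C ⧸ pPrimeCore 2 ↥C)) := by
    refine sSup_le fun F hF g hg => ?_
    refine mem_normalizer_of_conj_mem fun x hx => ?_
    have hle' : (sSup I).map (MulAut.conj g).toMonoidHom ≤ sSup I := by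
      rw [Subgroup.map_le_iff_le_comap]
      refine sSup_le fun F' hF' z hz => le_sSup hF' ?_
      exact conj_mem (CfsgLib.Cores.layer_le_normalizer hF'.1 (CfsgLib.Cores.le_layer hF.1 hg)) hz
    simpa using hle' ⟨x, hx, rfl⟩
  -- `a = a'' a'`
  obtain ⟨a'', ha'', a', ha', hsplit⟩ : ∃ a'' ∈ A'', ∃ a' ∈ A', a = a'' * a' := by
    have ha2 : a ∈ ((A'' ⊔ A' : Subgroup G) : Set G) := by rwa [sup_comm]
    rw [Subgroup.coe_mul_of_right_le_normalizer_left A'' A' (fun x hx =>
      mem_normalizer_of_conj_mem fun z hz => by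
        rw [h.comm x hx z hz, mul_inv_cancel_right]; exact hz)] at ha2
    obtain ⟨u, hu, v, hv, huv⟩ := ha2
    exact ⟨u, hu, v, hv, huv.symm⟩
  set s := π ⟨a'', hA''C ha''⟩ with hs
  have hsI : s ∈ Subgroup.normalizer ((sSup I : Subgroup _) : Set (↥C ⧸ pPrimeCore 2 ↥C)) := by
    refine mem_normalizer_of_conj_mem fun x hx => ?_
    have hle' : (sSup I).map (MulAut.conj s).toMonoidHom ≤ sSup I := by
      rw [Subgroup.map_le_iff_le_comap]
      refine sSup_le fun F hF => ?_
      rw [← Subgroup.map_le_iff_le_comap]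
      refine le_sSup (show F.map (MulAut.conj s).toMonoidHom ∈ I from
        ⟨CfsgLib.LBalance.map_conj_component hF.1 s, ?_⟩)
      rintro _ ⟨z, hz, rfl⟩
      refine Subgroup.mem_centralizer_iff.mpr ?_
      rintro _ ⟨f, hf, rfl⟩
      have hsz : s * π z * s⁻¹ = π z := by
        rw [hs, ← map_inv, ← map_mul, ← map_mul]
        refine congrArg π (Subtype.ext ?_)
        simp [(h.comm _ (show (z : G) ∈ A' from hz) a'' ha'').symm]
      have := congrArg (fun t => s * t * s⁻¹)
        (Subgroup.mem_centralizer_iff.mp (hF.2 ⟨z, hz, rfl⟩) f hf)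
      calc (MulAut.conj s).toMonoidHom f * π z = s * (f * π z) * s⁻¹ := by
            conv_lhs => rw [← hsz]
            simp [mul_assoc]
        _ = s * (π z * f) * s⁻¹ := this
        _ = _ := by
            conv_rhs => rw [← hsz]
            simp [mul_assoc]
    simpa using hle' ⟨x, hx, rfl⟩
  have hIy : sSup I ≤ Subgroup.centralizer ({π ⟨y, hDC hyD⟩} : Set _) := by
    refine sSup_le fun F hF f hf => Subgroup.mem_centralizer_singleton_iff.mpr ?_
    have hKn : ((O ⊓ C).subgroupOf C).map π ≤ Subgroup.normalizer (F : Set _) :=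
      ((Subgroup.map_mono (Subgroup.comap_mono inf_le_left)).trans (map_core_le haC haa)).trans
        (CfsgLib.Balance.centralizerPPrimeCore_le_normalizer_component hOC
          (orderOf_image haC haa ha1) hF.1)
    have hy' : π ⟨y, hDC hyD⟩ ∈ ⁅((O ⊓ C).subgroupOf C).map π, (A'.subgroupOf C).map π⁆ := by
      rw [← Subgroup.map_commutator]
      refine ⟨⟨y, hDC hyD⟩, ?_, rfl⟩
      have : (⁅(O ⊓ C).subgroupOf C, A'.subgroupOf C⁆).map C.subtype = ⁅O ⊓ C, A'⁆ := by
        rw [Subgroup.map_commutator, Subgroup.map_subgroupOf_eq_of_le inf_le_right,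
          Subgroup.map_subgroupOf_eq_of_le hA'C]
      obtain ⟨z, hz, hzy⟩ := this.ge hyK
      have hz' : z = ⟨y, hDC hyD⟩ := Subtype.ext hzy
      exact hz' ▸ hz
    exact Subgroup.mem_centralizer_iff.mp (commutator_le_centralizer hKn hF.2 hy') f hf
  set eC : ↥C := ⟨e, hDC e.2⟩ with heC
  have hlay : π eC ∈ layer (↥C ⧸ pPrimeCore 2 ↥C) := by
    rw [← CfsgLib.LBalance.map_pLayer]
    exact ⟨eC, pLayer_centralizer_mem (CfsgLib.Balance.elemAb_isPGroup h.left) hA'C hDC he, rfl⟩
  have hmul := hlayer hlay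
  rw [← SetLike.mem_coe, Subgroup.coe_mul_of_right_le_normalizer_left _ _ hJI] at hmul
  obtain ⟨u, hu, v, hv, huv⟩ := hmul
  change u * v = π eC at huv
  have hsv : s * v = v * s := by
    have : sSup J ≤ Subgroup.centralizer ({s} : Set _) := sSup_le fun F hF f hf =>
      Subgroup.mem_centralizer_singleton_iff.mpr
        (Subgroup.mem_centralizer_iff.mp (hF.2 ⟨⟨a'', hA''C ha''⟩, ha'', rfl⟩) f hf)
    exact (Subgroup.mem_centralizer_singleton_iff.mp (this hv)).symm
  have hes : ⁅π eC, s⁆ ∈ sSup I := by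
    have : ⁅u * v, s⁆ = u * (s * u⁻¹ * s⁻¹) := by
      rw [commutatorElement_def, mul_assoc u v s, ← hsv]
      simp [mul_assoc]
    rw [← huv, this]
    exact Subgroup.mul_mem _ hu (conj_mem hsI (Subgroup.inv_mem _ hu))
  have heq : ⁅(e : G), a⁆ = ⁅(e : G), a''⁆ := by
    have hc : a' * (e : G)⁻¹ = (e : G)⁻¹ * a' :=
      Subgroup.mem_centralizer_iff.mp (Subgroup.inv_mem _ e.2) a' ha' |>.trans rfl
    rw [hsplit, commutatorElement_def, commutatorElement_def, mul_inv_rev]
    calc (e : G) * (a'' * a') * (e : G)⁻¹ * (a'⁻¹ * a''⁻¹)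
        = (e : G) * a'' * (a' * (e : G)⁻¹) * a'⁻¹ * a''⁻¹ := by simp [mul_assoc]
      _ = _ := by rw [hc]; simp [mul_assoc]
  have hyC : π ⁅eC, ⟨a, haC⟩⁆ = ⁅π eC, s⁆ := by
    rw [hs, ← map_commutatorElement]
    exact congrArg π (Subtype.ext heq)
  have h1 : ⁅⁅eC, (⟨a, haC⟩ : ↥C)⁆, (⟨y, hDC hyD⟩ : ↥C)⁆ ∈ pPrimeCore 2 ↥C := by
    refine (QuotientGroup.eq_one_iff _).mp ?_
    change π _ = 1
    rw [map_commutatorElement, hyC, commutatorElement_eq_one_iff_mul_comm]
    exact Subgroup.mem_centralizer_singleton_iff.mp (hIy hes)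
  -- `O(C(α)) ∩ D` is a normal subgroup of odd order of `D`
  let M : Subgroup ↥D := (pPrimeCore 2 ↥C).comap (Subgroup.inclusion hDC)
  haveI : M.Normal := inferInstance
  have hM : (Nat.card M).Coprime 2 :=
    (CfsgLib.Cores.card_pPrimeCore_coprime 2).coprime_dvd_left
      (Subgroup.card_comap_dvd_of_injective _ _ (Subgroup.inclusion_injective hDC))
  exact CfsgLib.Cores.le_pPrimeCore (N := M) hM h1

theorem mem_centralizer_self (h : Setting A' A'') {a : G} (ha : a ∈ A' ⊔ A'') :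
    a ∈ Subgroup.centralizer (A' : Set G) :=
  Subgroup.mem_centralizer_iff.mpr fun _ hx =>
    comm_of_mem h.elem.1 (Subgroup.mem_sup_left hx) ha

theorem symm (h : Setting A' A'') (hc : Nat.card ↥A'' = 4) : Setting A'' A' where
  left := h.right
  right := h.left
  card := hc
  comm := fun x hx y hy => (h.comm y hy x hx).symm
  sep := fun a ha ha1 E hE => (h.sep a (sup_comm A'' A' ▸ ha) ha1 E hE).symm

theorem sup_le_normalizer_core (h : Setting A' A'') {a : G} (ha : a ∈ A' ⊔ A'') :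
    A' ⊔ A'' ≤ Subgroup.normalizer (centralizerPPrimeCore 2 a : Set G) :=
  (h.le_centralizer ha).trans (CfsgLib.Balance.centralizer_le_normalizer_centralizerPPrimeCore 2 a)

theorem part_le_core (h : Setting A' A'') {a : G} (ha : a ∈ A' ⊔ A'') :
    part A' a ≤ centralizerPPrimeCore 2 a :=
  sup_le (commutator_le_left (le_sup_left.trans (h.sup_le_normalizer_core ha))) inf_le_left

theorem sup_le_normalizer_part (h : Setting A' A'') {a : G} (ha : a ∈ A' ⊔ A'') :
    A' ⊔ A'' ≤ Subgroup.normalizer ((part A' a : Subgroup G) : Set G) := by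
  have hO := h.sup_le_normalizer_core ha
  have hA : A' ⊔ A'' ≤ Subgroup.normalizer (A' : Set G) :=
    le_normalizer_of_le_comm h.elem.1 le_sup_left
  have hY : A' ⊔ A'' ≤ Subgroup.normalizer ((centCore A' : Subgroup G) : Set G) := by
    refine fun x hx => CfsgLib.Cores.normalizer_le_normalizer_map_subtype _ _ ?_
    exact Subgroup.le_normalizer (h.mem_centralizer_self hx)
  intro x hx
  refine mem_normalizer_of_conj_mem fun z hz => ?_
  have hle : (part A' a).map (MulAut.conj x).toMonoidHom ≤ part A' a := by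
    rw [Subgroup.map_sup]
    refine sup_le_sup ?_ ?_
    · rintro _ ⟨w, hw, rfl⟩
      simpa using conj_mem (le_normalizer_commutator hO hA hx) hw
    · rintro _ ⟨w, hw, rfl⟩
      exact ⟨by simpa using conj_mem (hO hx) hw.1, by simpa using conj_mem (hY hx) hw.2⟩
  simpa using hle ⟨z, hz, rfl⟩

/-- `C(A') ∩ [O_a,A'](O_a ∩ O(C(A'))) ≤ O(C(A'))`. -/
theorem part_inf_centralizer_le (h : Setting A' A'')
    (hsol : ∀ Y : Subgroup G, Odd (Nat.card Y) → Group.IsSolvable Y) {a : G}
    (ha : a ∈ A' ⊔ A'') (ha1 : a ≠ 1) :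
    part A' a ⊓ Subgroup.centralizer (A' : Set G) ≤ centCore A' := by
  rintro x ⟨hx, hxC⟩
  have hn : centralizerPPrimeCore 2 a ⊓ centCore A' ≤
      Subgroup.normalizer ((⁅centralizerPPrimeCore 2 a, A'⁆ : Subgroup G) : Set G) :=
    inf_le_left.trans (le_sup_left.trans (sup_le_normalizer_commutator A' _))
  have hx' : x ∈ ((⁅centralizerPPrimeCore 2 a, A'⁆ ⊔
      (centralizerPPrimeCore 2 a ⊓ centCore A') : Subgroup G) : Set G) := hx
  rw [Subgroup.coe_mul_of_right_le_normalizer_left _ _ hn] at hx'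
  obtain ⟨n, hnY, z, hz, rfl⟩ := hx'
  refine Subgroup.mul_mem _ (h.fixed_le_centCore hsol ha ha1 ⟨hnY, ?_⟩) hz.2
  have hzC : z ∈ Subgroup.centralizer (A' : Set G) := Subgroup.map_subtype_le _ hz.2
  simpa using Subgroup.mul_mem _ hxC (Subgroup.inv_mem _ hzC)

/-- The elements of `part A' a` centralizing `b` centralize the components of `C(b)` modulo the
core that are centralized by `A'`. -/
theorem part_centralizes (h : Setting A' A'')
    (hsol : ∀ Y : Subgroup G, Odd (Nat.card Y) → Group.IsSolvable Y) {a b : G}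
    (ha : a ∈ A' ⊔ A'') (ha1 : a ≠ 1) (hb : b ∈ A' ⊔ A'')
    {F : Subgroup (↥(Subgroup.centralizer ({b} : Set G)) ⧸
      pPrimeCore 2 ↥(Subgroup.centralizer ({b} : Set G)))}
    (hF : IsComponent F)
    (hFA : (A'.subgroupOf (Subgroup.centralizer ({b} : Set G))).map
        (QuotientGroup.mk' (pPrimeCore 2 ↥(Subgroup.centralizer ({b} : Set G)))) ≤
      Subgroup.centralizer (F : Set _))
    {x : ↥(Subgroup.centralizer ({b} : Set G))} (hx : (x : G) ∈ part A' a) :
    QuotientGroup.mk' (pPrimeCore 2 ↥(Subgroup.centralizer ({b} : Set G))) x ∈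
      Subgroup.centralizer (F : Set _) := by
  haveI : Fact (Nat.Prime 2) := ⟨Nat.prime_two⟩
  let C := Subgroup.centralizer ({b} : Set G)
  let π := QuotientGroup.mk' (pPrimeCore 2 ↥C)
  have hAC : A' ≤ C := le_sup_left.trans (h.le_centralizer hb)
  have haC : a ∈ C := h.le_centralizer hb ha
  have haa : a * a = 1 := elemAb_sq h.elem ha
  have hOC := CfsgLib.Cores.pPrimeCore_quotient_pPrimeCore (G := ↥C) 2
  have hA2 : IsPGroup 2 ↥A' := CfsgLib.Balance.elemAb_isPGroup h.left
  have hAsol : Group.IsSolvable ↥A' := by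
    haveI := h.left.1
    exact isSolvable_of_isMulCommutative A'
  let K : Subgroup G := part A' a ⊓ C
  have hAK : A' ≤ Subgroup.normalizer (K : Set G) := fun z hz =>
    mem_normalizer_of_conj_mem fun w hw =>
      ⟨conj_mem (h.sup_le_normalizer_part ha (Subgroup.mem_sup_left hz)) hw.1,
        C.mul_mem (C.mul_mem (hAC hz) hw.2) (C.inv_mem (hAC hz))⟩
  have hKn : (K.subgroupOf C).map π ≤ Subgroup.normalizer (F : Set _) :=
    ((Subgroup.map_mono (Subgroup.comap_mono (inf_le_left.trans (h.part_le_core ha)))).trans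
      (map_core_le haC haa)).trans
      (CfsgLib.Balance.centralizerPPrimeCore_le_normalizer_component hOC
        (orderOf_image haC haa ha1) hF)
  obtain ⟨n, hn, c, hc, hxnc⟩ := commutator_sup_centralizer_aux hAK
    (coprime_card hA2 (odd_of_le (inf_le_left.trans (h.part_le_core ha)) (odd_card_core a)))
    (Or.inl hAsol) (show (x : G) ∈ K from ⟨hx, x.2⟩)
  have hnK : n ∈ K := commutator_le_left hAK hn
  have hx' : x = ⟨n, hnK.2⟩ * ⟨c, hc.1.2⟩ := Subtype.ext hxnc
  rw [hx', map_mul]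
  refine Subgroup.mul_mem _ ?_ ?_
  · refine commutator_le_centralizer hKn hFA ?_
    rw [← Subgroup.map_commutator]
    refine ⟨⟨n, hnK.2⟩, ?_, rfl⟩
    have : (⁅K.subgroupOf C, A'.subgroupOf C⁆).map C.subtype = ⁅K, A'⁆ := by
      rw [Subgroup.map_commutator, Subgroup.map_subgroupOf_eq_of_le inf_le_right,
        Subgroup.map_subgroupOf_eq_of_le hAC]
    obtain ⟨z, hz, hzn⟩ := this.ge hn
    have hz' : z = ⟨n, hnK.2⟩ := Subtype.ext hzn
    exact hz' ▸ hz
  · let D := Subgroup.centralizer (A' : Set G)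
    let M : Subgroup (↥C ⧸ pPrimeCore 2 ↥C) := ((centCore A').subgroupOf C).map π
    have hM : (Nat.card M).Coprime 2 := by
      refine Nat.Coprime.coprime_dvd_left ((Subgroup.card_map_dvd _ _).trans
        (Subgroup.card_comap_dvd_of_injective _ _ C.subtype_injective)) ?_
      rw [Subgroup.card_map_of_injective D.subtype_injective]
      exact CfsgLib.Cores.card_pPrimeCore_coprime 2
    have hcov : F ≤ ((D ⊓ C).subgroupOf C).map π := by
      intro f hf
      obtain ⟨e, rfl⟩ := QuotientGroup.mk'_surjective _ f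
      let T : Subgroup ↥C := A'.subgroupOf C
      have hT : IsPGroup 2 ↥T := hA2.comap_of_injective C.subtype C.subtype_injective
      have hTF : π e ∈ Subgroup.centralizer ((T.map π : Subgroup _) : Set _) :=
        Subgroup.mem_centralizer_iff.mpr fun z hz =>
          (Subgroup.mem_centralizer_iff.mp (hFA hz) _ hf).symm
      rw [← CfsgLib.LBalance.map_centralizer_of_coprime _
        (CfsgLib.Cores.card_pPrimeCore_coprime 2) hT] at hTF
      obtain ⟨c, hc, hce⟩ := hTF
      refine ⟨c, ⟨?_, c.2⟩, hce⟩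
      exact Subgroup.mem_centralizer_iff.mpr fun t ht =>
        congrArg Subtype.val (Subgroup.mem_centralizer_iff.mp hc ⟨t, hAC ht⟩ ht)
    have hFM : F ≤ Subgroup.normalizer (M : Set _) := by
      refine hcov.trans ?_
      rintro _ ⟨e, he, rfl⟩
      refine mem_normalizer_of_conj_mem ?_
      rintro _ ⟨z, hz, rfl⟩
      refine ⟨e * z * e⁻¹, ?_, by simp [π]⟩
      show ((e * z * e⁻¹ : ↥C) : G) ∈ centCore A'
      exact conj_mem (CfsgLib.Cores.normalizer_le_normalizer_map_subtype _ _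
        (Subgroup.le_normalizer he.1)) hz
    refine mem_centralizer_of_perfect_odd hOC hF hM hFM ?_ (hKn ⟨⟨c, hc.1.2⟩, hc.1, rfl⟩)
    exact ⟨⟨c, hc.1.2⟩, h.part_inf_centralizer_le hsol ha ha1 ⟨hc.1.1, hc.2⟩, rfl⟩

theorem part_inf_core_le (h : Setting A' A'')
    (hsol : ∀ Y : Subgroup G, Odd (Nat.card Y) → Group.IsSolvable Y) {a b : G}
    (ha : a ∈ A' ⊔ A'') (ha1 : a ≠ 1) (hb : b ∈ A' ⊔ A'') :
    part A' a ⊓ centralizerPPrimeCore 2 b ≤ part A' b := by
  haveI : Fact (Nat.Prime 2) := ⟨Nat.prime_two⟩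
  let K := part A' a ⊓ centralizerPPrimeCore 2 b
  have hAK : A' ≤ Subgroup.normalizer (K : Set G) := fun z hz =>
    mem_normalizer_of_conj_mem fun w hw =>
      ⟨conj_mem (h.sup_le_normalizer_part ha (Subgroup.mem_sup_left hz)) hw.1,
        conj_mem (h.sup_le_normalizer_core hb (Subgroup.mem_sup_left hz)) hw.2⟩
  have hAsol : Group.IsSolvable ↥A' := by
    haveI := h.left.1
    exact isSolvable_of_isMulCommutative A'
  intro x hx
  obtain ⟨n, hn, c, hc, rfl⟩ := commutator_sup_centralizer_aux hAK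
    (coprime_card (CfsgLib.Balance.elemAb_isPGroup h.left)
      (odd_of_le inf_le_right (odd_card_core b))) (Or.inl hAsol) hx
  exact Subgroup.mul_mem_sup (Subgroup.commutator_mono inf_le_right le_rfl hn)
    ⟨hc.1.2, h.part_inf_centralizer_le hsol ha ha1 ⟨hc.1.1, hc.2⟩⟩

end Setting

/-- **The signalizer functor of a core-separated pair.** -/
theorem isSignalizerFunctor_of_coreSeparated {A₁ A₂ : Subgroup G}
    (hsol : ∀ Y : Subgroup G, Odd (Nat.card Y) → Group.IsSolvable Y)
    (hcs : IsCoreSeparated A₁ A₂) :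
    IsSignalizerFunctor 2 (A₁ ⊔ A₂) (fun a => part A₁ a ⊓ part A₂ a) := by
  haveI : Fact (Nat.Prime 2) := ⟨Nat.prime_two⟩
  obtain ⟨hA₁, hA₂, hc1, hc2, -, -, hcomm, hsep⟩ := hcs
  have h1 : Setting A₁ A₂ := ⟨hA₁, hA₂, hc1, hcomm, hsep⟩
  have h2 : Setting A₂ A₁ := h1.symm hc2
  refine ⟨fun a ha _ => ?_, fun a ha _ hd => ?_, fun a ha _ b hb x hx => ?_,
    fun a ha ha1 b hb hb1 => ?_⟩
  · exact (inf_le_left.trans (h1.part_le_core ha)).trans
      (CfsgLib.Balance.centralizerPPrimeCore_le_centralizer 2 a)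
  · exact CfsgLib.Balance.not_dvd_card_centralizerPPrimeCore a
      (hd.trans (Subgroup.card_dvd_of_le (inf_le_left.trans (h1.part_le_core ha))))
  · exact ⟨conj_mem (h1.sup_le_normalizer_part ha hb) hx.1,
      conj_mem (h2.sup_le_normalizer_part (sup_comm A₁ A₂ ▸ ha) (sup_comm A₁ A₂ ▸ hb)) hx.2⟩
  · rintro x ⟨⟨hx1, hx2⟩, hxb⟩
    have ha' : a ∈ A₂ ⊔ A₁ := sup_comm A₁ A₂ ▸ ha
    have hb' : b ∈ A₂ ⊔ A₁ := sup_comm A₁ A₂ ▸ hb
    have hxO : x ∈ centralizerPPrimeCore 2 b := by
      refine ⟨⟨x, hxb⟩, ?_, rfl⟩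
      refine mem_core_of_components (h1.le_centralizer hb ha) (elemAb_sq h1.elem ha) ha1
        (h1.part_le_core ha hx1) fun F hF => ?_
      rcases h1.component_cases hb hb1 hF with h | h
      · exact h1.part_centralizes hsol ha ha1 hb hF h hx1
      · exact h2.part_centralizes hsol ha' ha1 hb' hF h hx2
    exact ⟨h1.part_inf_core_le hsol ha ha1 hb ⟨hx1, hxO⟩,
      h2.part_inf_core_le hsol ha' ha1 hb' ⟨hx2, hxO⟩⟩

end CfsgLib.Signalizer.CoreSep
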