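import Cfsg.Agent.Lib.Signalizer.CompTools

/-!
2-components of centralisers of involutions containing a single involution: the toolkit inside the
ambient group.
-/

set_option autoImplicit false
set_option linter.style.haveILetI false
set_option linter.unusedSectionVars false

namespace CfsgLib.Signalizer

open Cfsg
open scoped commutatorElement

universe u

section Quot

/-- No perfect subgroup of even order centralises an element of order four when there is only one
involution. -/
theorem false_of_perfect_centralizing {H : Type*} [Group H] [Finite H] {z : H}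
    (hz : OnlyInvolution z) {q : H} (hq : orderOf q = 4) {P : Subgroup H} (hP : ⁅P, P⁆ = P)
    (heven : 2 ∣ Nat.card P) (hPq : P ≤ Subgroup.centralizer ({q} : Set H)) : False := by
  haveI : Fact (Nat.Prime 2) := ⟨Nat.prime_two⟩
  obtain ⟨T⟩ : Nonempty (Sylow 2 P) := inferInstance
  set S := (T : Subgroup P).map P.subtype with hS
  have hSC : S ≤ Subgroup.centralizer ({q} : Set H) := (Subgroup.map_subtype_le _).trans hPq
  have hqp : IsPGroup 2 (Subgroup.zpowers q) :=
    IsTwoElt.isPGroup ⟨2, by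
      rw [show (2 : ℕ) ^ 2 = orderOf q from hq.symm]; exact pow_orderOf_eq_one q⟩
  have hB : IsPGroup 2 (S ⊔ Subgroup.zpowers q : Subgroup H) :=
    (T.2.map _).to_sup_of_normal_right' hqp (fun s hs =>
      Subgroup.centralizer_le_normalizer _ (by
        rw [CfsgLib.Balance.centralizer_zpowers_eq]; exact hSC hs))
  obtain ⟨U, hU⟩ := hB.exists_le_sylow
  have hqU : q ∈ (U : Subgroup H) := hU ((le_sup_right : Subgroup.zpowers q ≤ _) (Subgroup.mem_zpowers q))
  have hzU : z ∈ (U : Subgroup H) := by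
    rw [← hz.sq_four hq]; exact mul_mem hqU hqU
  have hcyc : IsCyclic (S.subgroupOf U) := isCyclic_of_le_centralizer U.2 (hz.subgroup hzU)
    (x := ⟨q, hqU⟩) (by rw [Subgroup.orderOf_mk, hq]) fun s hs =>
      Subgroup.mem_centralizer_singleton_iff.2
        (Subtype.ext (Subgroup.mem_centralizer_singleton_iff.1 (hSC hs)))
  have hT : IsCyclic (T : Subgroup P) :=
    ((((T : Subgroup P).equivMapOfInjective P.subtype P.subtype_injective).trans
      (Subgroup.subgroupOfEquivOfLe (le_sup_left.trans hU : S ≤ U)).symm).isCyclic).2 hcyc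
  refine not_isCyclic_sylow ?_ (even_iff_two_dvd.2 heven) T hT
  apply Subgroup.map_injective P.subtype_injective
  rw [commutator_def, Subgroup.map_commutator, ← MonoidHom.range_eq_map, Subgroup.range_subtype, hP]

variable {X : Type u} [Group X] [Finite X]

/-- The image of a 2-component with a single involution has a single involution. -/
theorem onlyInvolution_image {J : Subgroup X} {z : X} (hzJ : z ∈ J) (hz : orderOf z = 2)
    (huniq : ∀ t ∈ J, orderOf t = 2 → t = z) :
    OnlyInvolution (⟨QuotientGroup.mk' (pPrimeCore 2 X) z, Subgroup.mem_map_of_mem _ hzJ⟩ :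
      J.map (QuotientGroup.mk' (pPrimeCore 2 X))) := by
  haveI : Fact (Nat.Prime 2) := ⟨Nat.prime_two⟩
  set π := QuotientGroup.mk' (pPrimeCore 2 X) with hπ
  have hz1 := CfsgLib.Involutions.mul_self_eq_one hz
  constructor
  · rw [Subgroup.orderOf_mk]
    refine CfsgLib.Involutions.orderOf_eq_two_iff.2 ⟨by rw [← map_mul, hz1, map_one], fun h => ?_⟩
    exact CfsgLib.Involutions.ne_one hz
      (eq_one_of_mem_core (isTwoElt_of_sq hz1) ((QuotientGroup.eq_one_iff z).1 h))
  · rintro ⟨_, j, hj, rfl⟩ ht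
    apply Subtype.ext
    replace ht : orderOf (π j) = 2 := (Subgroup.orderOf_mk _ _).symm.trans ht
    obtain ⟨k, m, hm, hkm⟩ := CfsgLib.LBalance.exists_pElement_mul (p := 2) j
    have hmo : Odd m := Nat.coprime_two_right.1 hm
    have ht2 : π j * π j = 1 := CfsgLib.Involutions.mul_self_eq_one ht
    have hjm : π (j ^ m) = π j := by
      obtain ⟨l, rfl⟩ := hmo
      rw [map_pow, pow_succ, pow_mul, pow_two, ht2, one_pow, one_mul]
    have h2 : (j ^ m) * (j ^ m) = 1 := by
      refine eq_one_of_mem_core (IsTwoElt.isPGroup ⟨k, hkm⟩ |> fun hp =>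
        isTwoElt_of_isPGroup hp (mul_mem (Subgroup.mem_zpowers _) (Subgroup.mem_zpowers _))) ?_
      rw [← QuotientGroup.eq_one_iff]
      show π (j ^ m * j ^ m) = 1
      rw [map_mul, hjm, ht2]
    show π j = π z
    rw [← hjm]
    by_cases h1 : j ^ m = 1
    · exfalso
      rw [← hjm, h1, map_one, orderOf_one] at ht
      omega
    · rw [huniq _ (pow_mem hj m) (CfsgLib.Involutions.orderOf_eq_two_iff.2 ⟨h2, h1⟩)]

/-- An involution of the 2-layer acting nontrivially on a 2-component with one involution has no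
2-component of its centraliser inside that component. -/
theorem false_of_inner {J : Subgroup X} (hJ : IsPComponent 2 J) {z : X} (hzJ : z ∈ J)
    (hz : orderOf z = 2) (huniq : ∀ t ∈ J, orderOf t = 2 → t = z) {a : X} (ha : a * a = 1)
    (haL : a ∈ pLayer 2 X) {j0 : X} (hj0 : j0 ∈ J)
    (hne : a * j0 * a⁻¹ * j0⁻¹ ∉ pPrimeCore 2 X) {P : Subgroup X} (hPJ : P ≤ J)
    (hPa : P ≤ Subgroup.centralizer ({a} : Set X))
    (hPp : ⁅P.map (QuotientGroup.mk' (pPrimeCore 2 X)), P.map (QuotientGroup.mk' (pPrimeCore 2 X))⁆ =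
      P.map (QuotientGroup.mk' (pPrimeCore 2 X))) (heven : 2 ∣ Nat.card P) : False := by
  haveI : Fact (Nat.Prime 2) := ⟨Nat.prime_two⟩
  set π := QuotientGroup.mk' (pPrimeCore 2 X) with hπ
  set H := J.map π with hH0
  have hH : IsComponent H := hJ.2.1
  have hOz := onlyInvolution_image hzJ hz huniq
  set R := Subgroup.centralizer (H : Set (X ⧸ pPrimeCore 2 X)) with hR
  obtain ⟨u, hu, hr⟩ := exists_inner hH (show π a ∈ layer _ by
    rw [← CfsgLib.LBalance.map_pLayer]; exact Subgroup.mem_map_of_mem π haL)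
  obtain ⟨r, hrdef⟩ : ∃ r, r = u⁻¹ * π a := ⟨_, rfl⟩
  rw [← hrdef] at hr
  have hae : π a = u * r := by rw [hrdef, mul_inv_cancel_left]
  have hcomm : Commute u r := Subgroup.mem_centralizer_iff.1 hr u hu
  have ha2 : (u * u) * (r * r) = 1 := by
    calc (u * u) * (r * r) = u * (u * r) * r := by group
      _ = u * (r * u) * r := by rw [hcomm.eq]
      _ = (u * r) * (u * r) := by group
      _ = 1 := by rw [← hae, ← map_mul, ha, map_one]
  set uH : H := ⟨u, hu⟩ with huH
  have hcent : ∀ y : H, y * (uH * uH) = (uH * uH) * y := by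
    intro y
    apply Subtype.ext
    show (y : X ⧸ pPrimeCore 2 X) * (u * u) = u * u * y
    rw [mul_eq_one_iff_eq_inv.1 ha2]
    exact Subgroup.mem_centralizer_iff.1 (inv_mem (mul_mem hr hr)) _ y.2
  -- the central element has 2-power order
  have hodd : ∀ v : H, (∀ y : H, y * v = v * y) → (orderOf v).Coprime 2 → v = 1 := by
    intro v hv hvo
    have hn : (Subgroup.zpowers v).Normal :=
      ⟨fun w hw g => by
        obtain ⟨i, rfl⟩ := Subgroup.mem_zpowers_iff.1 hw
        rw [((show Commute g v from hv g).zpow_right i).eq, mul_inv_cancel_right]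
        exact Subgroup.zpow_mem _ (Subgroup.mem_zpowers v) i⟩
    have hsn : ((Subgroup.zpowers v).map H.subtype).IsSubnormal :=
      Subgroup.IsSubnormal.trans (Subgroup.map_subtype_le _) (by
        rw [Subgroup.subgroupOf, Subgroup.comap_map_eq_self_of_injective H.subtype_injective]
        exact hn.isSubnormal) hH.1
    have h1 := CfsgLib.Cores.le_pPrimeCore_of_subnormal (p := 2) hsn (by
      rw [Subgroup.card_subtype, Nat.card_zpowers]; exact hvo)
    rw [CfsgLib.Cores.pPrimeCore_quotient_pPrimeCore, le_bot_iff,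
      Subgroup.map_eq_bot_iff_of_injective _ H.subtype_injective, Subgroup.zpowers_eq_bot] at h1
    exact h1
  obtain ⟨k, m, hm, hkm⟩ := CfsgLib.LBalance.exists_pElement_mul (p := 2) (uH * uH)
  have h2k : (uH * uH) ^ 2 ^ k = 1 := by
    refine hodd _ (fun y => ((show Commute y (uH * uH) from hcent y).pow_right _).eq) ?_
    refine hm.coprime_dvd_left (orderOf_dvd_of_pow_eq_one ?_)
    rw [← pow_mul, mul_comm, pow_mul, hkm]
  obtain ⟨T, hT⟩ := (IsTwoElt.isPGroup (⟨k, h2k⟩ : IsTwoElt (uH * uH))).exists_le_sylow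
  have huT : uH * uH ∈ (T : Subgroup H) := hT (Subgroup.mem_zpowers _)
  have hHev : Even (Nat.card H) := even_iff_two_dvd.2 (hOz.1.symm.dvd.trans (orderOf_dvd_natCard _))
  have hzT : (⟨π z, Subgroup.mem_map_of_mem _ hzJ⟩ : H) ∈ (T : Subgroup H) := by
    obtain ⟨t, ht, ht2⟩ := CfsgLib.Involutions.exists_involution_mem_sylow T hHev
    exact hOz.2 t ht2 ▸ ht
  have hperf : commutator H = ⊤ := Group.isPerfect_def.1 hH.2.1
  have h4 : uH * uH * (uH * uH) = 1 := congrArg Subtype.val (sq_eq_one_of_central T.2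
    (hOz.subgroup hzT) (not_isCyclic_sylow hperf hHev T) (x := ⟨_, huT⟩)
    fun y => Subtype.ext (hcent y).symm)
  have h2 : uH * uH ≠ 1 := by
    intro h
    have hzc : ∀ y : H, y * uH = uH * y := by
      rcases hOz.sq_eq h with e | e <;> rw [e]
      · simp
      · exact hOz.central
    apply hne
    rw [← QuotientGroup.eq_one_iff]
    show π (a * j0 * a⁻¹ * j0⁻¹) = 1
    have e : π a * π j0 = π j0 * π a := by
      have h1 : u * π j0 = π j0 * u :=
        (congrArg Subtype.val (hzc ⟨π j0, Subgroup.mem_map_of_mem π hj0⟩)).symm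
      have h2 : π j0 * r = r * π j0 :=
        Subgroup.mem_centralizer_iff.1 hr _ (Subgroup.mem_map_of_mem π hj0)
      rw [hae, mul_assoc, ← h2, ← mul_assoc, h1, mul_assoc]
    rw [map_mul, map_mul, map_mul, map_inv, map_inv, e, mul_inv_cancel_right, mul_inv_cancel]
  have hu4 : orderOf uH = 4 := orderOf_eq_prime_pow (p := 2) (n := 1)
    (by rw [pow_one, pow_two]; exact h2)
    (by rw [show (2 : ℕ) ^ (1 + 1) = 2 + 2 by norm_num, pow_add, pow_two]; exact h4)
  have hPH : P.map π ≤ H := Subgroup.map_mono hPJ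
  refine false_of_perfect_centralizing hOz hu4 (P := (P.map π).subgroupOf H) ?_ ?_ ?_
  · apply Subgroup.map_injective H.subtype_injective
    rw [Subgroup.map_commutator, Subgroup.map_subgroupOf_eq_of_le hPH, hPp]
  · rw [Nat.card_congr (Subgroup.subgroupOfEquivOfLe hPH).toEquiv]
    obtain ⟨i, hi⟩ := exists_prime_orderOf_dvd_card' (G := P) 2 heven
    have hi' : orderOf (i : X) = 2 := (Subgroup.orderOf_coe i).trans hi
    have hi2 := CfsgLib.Involutions.mul_self_eq_one hi'
    have hπi : orderOf (π i) = 2 := CfsgLib.Involutions.orderOf_eq_two_iff.2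
      ⟨by rw [← map_mul, hi2, map_one], fun h => CfsgLib.Involutions.ne_one hi'
        (eq_one_of_mem_core (isTwoElt_of_sq hi2) ((QuotientGroup.eq_one_iff _).1 h))⟩
    exact hπi.symm.dvd.trans (Subgroup.orderOf_dvd_natCard _ (Subgroup.mem_map_of_mem π i.2))
  · intro v hv
    obtain ⟨p, hp, hpv⟩ := hv
    have hpH : π p ∈ H := hPH (Subgroup.mem_map_of_mem π hp)
    have h1 : π p * π a = π a * π p := by
      rw [← map_mul, ← map_mul, Subgroup.mem_centralizer_singleton_iff.1 (hPa hp)]
    have h2 : π p * r = r * π p := Subgroup.mem_centralizer_iff.1 hr _ hpH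
    rw [Subgroup.mem_centralizer_singleton_iff]
    apply Subtype.ext
    have hv' : (v : X ⧸ pPrimeCore 2 X) = π p := hpv.symm
    show (v : X ⧸ pPrimeCore 2 X) * u = u * v
    rw [hv']
    apply mul_right_cancel (b := r)
    rw [mul_assoc, ← hae, h1, hae, mul_assoc, ← h2, mul_assoc]

end Quot

section Ambient

variable {G : Type u} [Group G] [Finite G]

/-- `J` is a 2-component of the centraliser of `z`. -/
def IsComp (z : G) (J : Subgroup G) : Prop :=
  J ≤ Subgroup.centralizer ({z} : Set G) ∧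
    IsPComponent 2 (J.subgroupOf (Subgroup.centralizer ({z} : Set G)))

/-- `J` is a 2-component of the centraliser of its only involution `z`. -/
structure Intrinsic (z : G) (J : Subgroup G) : Prop where
  inv : orderOf z = 2
  mem : z ∈ J
  uniq : ∀ t ∈ J, orderOf t = 2 → t = z
  comp : IsComp z J

/-- `x` centralises `J` modulo the core of the centraliser of `z`. -/
def CentralisesMod (z : G) (J : Subgroup G) (x : G) : Prop :=
  ∀ j ∈ J, x * j * x⁻¹ * j⁻¹ ∈ centralizerPPrimeCore 2 z

/-- The 2-layer of the centraliser of `z`. -/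
def layOne (z : G) : Subgroup G :=
  (pLayer 2 ↥(Subgroup.centralizer ({z} : Set G))).map (Subgroup.centralizer ({z} : Set G)).subtype

/-- The 2-layer of the centraliser of `a` and `b`. -/
def layTwo (a b : G) : Subgroup G :=
  (pLayer 2 ↥(Subgroup.centralizer ({a} : Set G) ⊓ Subgroup.centralizer ({b} : Set G))).map
    (Subgroup.centralizer ({a} : Set G) ⊓ Subgroup.centralizer ({b} : Set G)).subtype

theorem layTwo_comm (a b : G) : layTwo a b = layTwo b a := map_pLayer_congr (inf_comm _ _)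

theorem IsComp.map_conj {z : G} {J : Subgroup G} (h : IsComp z J) (g : G) :
    IsComp (g * z * g⁻¹) (J.map (MulAut.conj g).toMonoidHom) := by
  haveI : Fact (Nat.Prime 2) := ⟨Nat.prime_two⟩
  set C := Subgroup.centralizer ({z} : Set G)
  set C' := Subgroup.centralizer ({g * z * g⁻¹} : Set G)
  have hC : C.map (MulAut.conj g).toMonoidHom = C' := by
    ext y
    rw [Subgroup.mem_map_equiv, Subgroup.mem_centralizer_singleton_iff,
      Subgroup.mem_centralizer_singleton_iff, MulAut.conj_symm_apply]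
    constructor
    · intro e
      calc y * (g * z * g⁻¹) = g * ((g⁻¹ * y * g) * z) * g⁻¹ := by group
        _ = g * (z * (g⁻¹ * y * g)) * g⁻¹ := by rw [e]
        _ = _ := by group
    · intro e
      calc g⁻¹ * y * g * z = g⁻¹ * (y * (g * z * g⁻¹)) * g := by group
        _ = g⁻¹ * ((g * z * g⁻¹) * y) * g := by rw [e]
        _ = _ := by group
  let e : ↥C ≃* ↥C' := (Subgroup.equivMapOfInjective C (MulAut.conj g).toMonoidHom
    (MulAut.conj g).injective).trans (MulEquiv.subgroupCongr hC)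
  refine ⟨(Subgroup.map_mono h.1).trans hC.le, ?_⟩
  have h2 := CfsgLib.LBalance.isPComponent_map_equiv e h.2
  convert h2 using 1
  ext y
  constructor
  · intro hy
    obtain ⟨j, hj, hjy⟩ := hy
    exact ⟨⟨j, h.1 hj⟩, hj, Subtype.ext hjy⟩
  · rintro ⟨⟨j, hjC⟩, hj, rfl⟩
    exact ⟨j, hj, rfl⟩

theorem Intrinsic.map_conj {z : G} {J : Subgroup G} (h : Intrinsic z J) (g : G) :
    Intrinsic (g * z * g⁻¹) (J.map (MulAut.conj g).toMonoidHom) := by
  refine ⟨(CfsgLib.Involutions.orderOf_conj g z).trans h.inv, ⟨z, h.mem, rfl⟩, ?_, h.comp.map_conj g⟩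
  rintro _ ⟨t, ht, rfl⟩ ht2
  rw [h.uniq t ht (by rwa [← CfsgLib.Involutions.orderOf_conj g t])]
  rfl

theorem IsComp.map_conj_of_mem {z : G} {J : Subgroup G} (h : IsComp z J) {g : G}
    (hg : g ∈ Subgroup.centralizer ({z} : Set G)) :
    IsComp z (J.map (MulAut.conj g).toMonoidHom) := by
  have := h.map_conj g
  rwa [show g * z * g⁻¹ = z by
    rw [Subgroup.mem_centralizer_singleton_iff.1 hg, mul_inv_cancel_right]] at this

theorem layOne_le_centralizer (z : G) : layOne z ≤ Subgroup.centralizer ({z} : Set G) :=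
  Subgroup.map_subtype_le _

theorem IsComp.le_layOne {z : G} {J : Subgroup G} (h : IsComp z J) : J ≤ layOne z := by
  rw [← Subgroup.map_subgroupOf_eq_of_le h.1]
  exact Subgroup.map_mono (CfsgLib.LBalance.le_pLayer h.2)

theorem IsComp.layOne_le_normalizer {z : G} {J : Subgroup G} (h : IsComp z J) :
    layOne z ≤ Subgroup.normalizer (J : Set G) := by
  haveI : Fact (Nat.Prime 2) := ⟨Nat.prime_two⟩
  rintro _ ⟨x, hx, rfl⟩
  have := Subgroup.le_normalizer_map (Subgroup.centralizer ({z} : Set G)).subtype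
    ⟨x, CfsgLib.Balance.pLayer_le_normalizer h.2 hx, rfl⟩
  rwa [Subgroup.map_subgroupOf_eq_of_le h.1] at this

theorem layTwo_le_inf (a b : G) :
    layTwo a b ≤ Subgroup.centralizer ({a} : Set G) ⊓ Subgroup.centralizer ({b} : Set G) :=
  Subgroup.map_subtype_le _

/-- The local 2-layer, seen inside the centraliser of `z`. -/
theorem map_layC_subtype {z : G} (a : ↥(Subgroup.centralizer ({z} : Set G))) :
    (layC a).map (Subgroup.centralizer ({z} : Set G)).subtype = layTwo z (a : G) := by
  have hmem : ∀ y : ↥(Subgroup.centralizer ({z} : Set G)),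
      y ∈ Subgroup.centralizer ({a} : Set ↥(Subgroup.centralizer ({z} : Set G))) ↔
      (y : G) ∈ Subgroup.centralizer ({(a : G)} : Set G) := fun y => by
    rw [Subgroup.mem_centralizer_singleton_iff, Subgroup.mem_centralizer_singleton_iff]
    exact ⟨fun h => congrArg Subtype.val h, fun h => Subtype.ext h⟩
  let e : ↥(Subgroup.centralizer ({a} : Set ↥(Subgroup.centralizer ({z} : Set G)))) ≃*
      ↥(Subgroup.centralizer ({z} : Set G) ⊓ Subgroup.centralizer ({(a : G)} : Set G)) :=
    { toFun := fun y => ⟨((y : ↥(Subgroup.centralizer ({z} : Set G))) : G),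
        (y : ↥(Subgroup.centralizer ({z} : Set G))).2, (hmem _).1 y.2⟩
      invFun := fun y => ⟨⟨y, y.2.1⟩, (hmem _).2 y.2.2⟩
      left_inv := fun y => rfl
      right_inv := fun y => rfl
      map_mul' := fun y y' => rfl }
  have h := congrArg (Subgroup.map (Subgroup.centralizer ({z} : Set G) ⊓
    Subgroup.centralizer ({(a : G)} : Set G)).subtype) (map_pLayer_equiv e)
  show ((pLayer 2 _).map _).map _ = _
  rw [Subgroup.map_map]
  rw [Subgroup.map_map] at h
  exact h

theorem mem_layC_iff {z : G} (a x : ↥(Subgroup.centralizer ({z} : Set G))) :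
    x ∈ layC a ↔ (x : G) ∈ layTwo z (a : G) := by
  rw [← map_layC_subtype]
  exact (Subgroup.mem_map_iff_mem (Subgroup.subtype_injective _)).symm

/-- L-balance. -/
theorem layTwo_le_layOne {a b : G} (hb : IsTwoElt b) (hab : a * b = b * a) :
    layTwo a b ≤ layOne a := by
  set bC : Subgroup.centralizer ({a} : Set G) := ⟨b, Subgroup.mem_centralizer_singleton_iff.2 hab.symm⟩
  have h := Subgroup.map_mono (f := (Subgroup.centralizer ({a} : Set G)).subtype)
    (layC_le_pLayer (IsTwoElt.of_map (f := (Subgroup.centralizer ({a} : Set G)).subtype)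
      (Subgroup.subtype_injective _) (x := bC) hb))
  rwa [map_layC_subtype] at h

theorem coe_mem_core {z : G} {x : ↥(Subgroup.centralizer ({z} : Set G))}
    (h : x ∈ pPrimeCore 2 ↥(Subgroup.centralizer ({z} : Set G))) :
    (x : G) ∈ centralizerPPrimeCore 2 z := ⟨x, h, rfl⟩

theorem mem_core_of_coe {z : G} {x : ↥(Subgroup.centralizer ({z} : Set G))}
    (h : (x : G) ∈ centralizerPPrimeCore 2 z) :
    x ∈ pPrimeCore 2 ↥(Subgroup.centralizer ({z} : Set G)) :=
  (Subgroup.mem_map_iff_mem (Subgroup.subtype_injective _)).1 h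

theorem eq_one_of_twoElt_core {z x : G} (hx : IsTwoElt x) (h : x ∈ centralizerPPrimeCore 2 z) :
    x = 1 :=
  hx.eq_one_of_mem (CfsgLib.Balance.coprime_card_centralizerPPrimeCore 2 z) h

/-- Elements of a 2-group commuting modulo a core commute. -/
theorem commute_of_mem_core {z : G} {T : Subgroup G} (hT : IsPGroup 2 T) {x y : G} (hx : x ∈ T)
    (hy : y ∈ T) (h : x * y * x⁻¹ * y⁻¹ ∈ centralizerPPrimeCore 2 z) : x * y = y * x := by
  have h1 := eq_one_of_twoElt_core (isTwoElt_of_isPGroup hT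
    (mul_mem (mul_mem (mul_mem hx hy) (inv_mem hx)) (inv_mem hy))) h
  exact mul_inv_eq_iff_eq_mul.1 (mul_inv_eq_one.1 h1)

/-- Distinct 2-components commute modulo the core. -/
theorem IsComp.commutator_mem {z : G} {J H : Subgroup G} (hJ : IsComp z J) (hH : IsComp z H)
    (hne : J ≠ H) {x y : G} (hx : x ∈ J) (hy : y ∈ H) :
    x * y * x⁻¹ * y⁻¹ ∈ centralizerPPrimeCore 2 z := by
  haveI : Fact (Nat.Prime 2) := ⟨Nat.prime_two⟩
  have h := (CfsgLib.Balance.commutator_pComponents_le hJ.2 hH.2 (fun e => hne (by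
    rw [← Subgroup.map_subgroupOf_eq_of_le hJ.1, e, Subgroup.map_subgroupOf_eq_of_le hH.1])))
    (Subgroup.commutator_mem_commutator (show (⟨x, hJ.1 hx⟩ : ↥(Subgroup.centralizer ({z} : Set G))) ∈
      J.subgroupOf _ from hx) (show (⟨y, hH.1 hy⟩ : ↥(Subgroup.centralizer ({z} : Set G))) ∈
      H.subgroupOf _ from hy))
  rw [CfsgLib.Cores.map_subtype_pPrimeCore_eq hJ.2.1] at h
  have h1 := coe_mem_core h.1.1
  simpa [commutatorElement_def] using h1

theorem IsComp.mem_of_twoElt {z : G} {J : Subgroup G} (hJ : IsComp z J) {x : G}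
    (hxC : x ∈ Subgroup.centralizer ({z} : Set G)) (hx : IsTwoElt x) {j : G} (hj : j ∈ J)
    (h : x * j⁻¹ ∈ centralizerPPrimeCore 2 z) : x ∈ J := by
  set C := Subgroup.centralizer ({z} : Set G)
  refine mem_pComponent_of_twoElt hJ.2 (IsTwoElt.of_map (f := C.subtype) C.subtype_injective
    (x := ⟨x, hxC⟩) hx) ⟨⟨j, hJ.1 hj⟩, hj, ?_⟩
  refine (QuotientGroup.eq.2 ?_)
  have h1 := mem_core_of_coe (x := (⟨x, hxC⟩ * ⟨j, hJ.1 hj⟩⁻¹ : C)) h
  have h2 := (inferInstance : (pPrimeCore 2 ↥C).Normal).mem_comm h1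
  exact h2

theorem mem_layTwo_of_centralised {z : G} {J : Subgroup G} (hJ : IsComp z J) {a : G}
    (haC : a ∈ Subgroup.centralizer ({z} : Set G)) (ha : IsTwoElt a) (hc : CentralisesMod z J a)
    {x : G} (hx : IsTwoElt x) (hxJ : x ∈ J) (hxa : x * a = a * x) : x ∈ layTwo z a := by
  set C := Subgroup.centralizer ({z} : Set G)
  refine (mem_layC_iff ⟨a, haC⟩ ⟨x, hJ.1 hxJ⟩).1 ?_
  refine mem_layC_of_centralised hJ.2 (IsTwoElt.of_map (f := C.subtype) C.subtype_injective
    (x := ⟨a, haC⟩) ha) (fun j hj => mem_core_of_coe (hc j hj))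
    (IsTwoElt.of_map (f := C.subtype) C.subtype_injective (x := ⟨x, hJ.1 hxJ⟩) hx) hxJ ?_
  exact Subgroup.mem_centralizer_singleton_iff.2 (Subtype.ext hxa)

theorem mem_layTwo_of_diag {z : G} {J : Subgroup G} (hJ : IsComp z J) {a : G}
    (haC : a ∈ Subgroup.centralizer ({z} : Set G)) (ha : a * a = 1)
    (hne : J.map (MulAut.conj a).toMonoidHom ≠ J) {x : G} (hx : IsTwoElt x) (hxJ : x ∈ J)
    (hcomm : x * (a * x * a⁻¹) = (a * x * a⁻¹) * x) : x * (a * x * a⁻¹) ∈ layTwo z a := by
  set C := Subgroup.centralizer ({z} : Set G)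
  set aC : C := ⟨a, haC⟩
  set xC : C := ⟨x, hJ.1 hxJ⟩
  refine (mem_layC_iff aC (xC * (aC * xC * aC⁻¹))).1 ?_
  refine mem_layC_of_diag hJ.2 (Subtype.ext ha) ?_
    (IsTwoElt.of_map (f := C.subtype) C.subtype_injective (x := xC) hx) hxJ (Subtype.ext hcomm)
  intro h
  apply hne
  have h2 := congrArg (Subgroup.map C.subtype) h
  rw [Subgroup.map_map, Subgroup.map_subgroupOf_eq_of_le hJ.1,
    show C.subtype.comp (MulAut.conj aC).toMonoidHom = ((MulAut.conj a).toMonoidHom).comp C.subtype
      from MonoidHom.ext fun _ => rfl,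
    ← Subgroup.map_map, Subgroup.map_subgroupOf_eq_of_le hJ.1] at h2
  exact h2

/-- The action of the local 2-layer on an invariant component with a single involution. -/
theorem centralisesMod_of_layTwo {z : G} {J : Subgroup G} (hJ : Intrinsic z J) {a : G}
    (haC : a ∈ Subgroup.centralizer ({z} : Set G)) (ha : orderOf a = 2)
    (haJ : a ∈ Subgroup.normalizer (J : Set G))
    (hor : z ∉ layTwo z a ∨ (a ∈ layOne z ∧ ¬ CentralisesMod z J a))
    {x : G} (hx : x ∈ layTwo z a) : CentralisesMod z J x := by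
  haveI : Fact (Nat.Prime 2) := ⟨Nat.prime_two⟩
  set C := Subgroup.centralizer ({z} : Set G) with hC
  set aC : C := ⟨a, haC⟩
  have hxC : x ∈ C := ((layTwo_le_inf z a) hx).1
  have haC2 : orderOf aC = 2 := (Subgroup.orderOf_mk a haC).trans ha
  intro j hj
  refine coe_mem_core (x := (⟨x, hxC⟩ * ⟨j, hJ.comp.1 hj⟩ * (⟨x, hxC⟩ : C)⁻¹ * ⟨j, hJ.comp.1 hj⟩⁻¹ : C)) ?_
  refine layC_centralises hJ.comp.2 haC2 ?_ ?_ ((mem_layC_iff aC ⟨x, hxC⟩).2 hx) hj
  · rw [Subgroup.mem_normalizer_iff]
    intro y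
    exact Subgroup.mem_normalizer_iff.1 haJ (y : G)
  · intro P hPJ hPL hPp heven
    rcases hor with h | ⟨h1, h2⟩
    · obtain ⟨i, hi⟩ := exists_prime_orderOf_dvd_card' (G := P) 2 heven
      have hi' : orderOf ((i : C) : G) = 2 := by
        rw [Subgroup.orderOf_coe, Subgroup.orderOf_coe, hi]
      have hiz : ((i : C) : G) = z := hJ.uniq _ (hPJ i.2) hi'
      have hmem := (mem_layC_iff aC _).1 (hPL i.2)
      rw [hiz] at hmem
      exact h hmem
    · unfold CentralisesMod at h2
      push Not at h2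
      obtain ⟨j0, hj0, hne⟩ := h2
      obtain ⟨w, hw, hwa⟩ := h1
      have hwe : w = aC := Subtype.ext hwa
      refine false_of_inner hJ.comp.2 (z := ⟨z, hJ.comp.1 hJ.mem⟩) hJ.mem
        ((Subgroup.orderOf_mk z _).trans hJ.inv) (fun t ht ht2 => Subtype.ext
          (hJ.uniq _ ht ((Subgroup.orderOf_coe t).trans ht2)))
        (CfsgLib.Involutions.mul_self_eq_one haC2) (hwe ▸ hw) (j0 := ⟨j0, hJ.comp.1 hj0⟩) hj0
        (fun h => hne (coe_mem_core h)) hPJ (hPL.trans (layC_le_centralizer aC)) hPp heven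

end Ambient

end CfsgLib.Signalizer
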