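import Cfsg.Agent.Lib.Signalizer.IntrinsicPair

/-!
Elements of order at least four of one intrinsic component that centralise the involution of
another normalise that other component.
-/

set_option autoImplicit false
set_option linter.style.haveILetI false
set_option linter.unusedSectionVars false

namespace CfsgLib.Signalizer

open Cfsg

universe u

/-- A 2-subgroup modulo the core, normalised by a given 2-subgroup, lifts. -/
theorem exists_two_group_lift {X : Type*} [Group X] [Finite X] {S0 : Subgroup X}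
    (hS0 : IsPGroup 2 S0) {M : Subgroup (X ⧸ pPrimeCore 2 X)} (hM : IsPGroup 2 M)
    (hn : S0.map (QuotientGroup.mk' (pPrimeCore 2 X)) ≤
      Subgroup.normalizer (M : Set (X ⧸ pPrimeCore 2 X))) :
    ∃ T : Subgroup X, IsPGroup 2 T ∧ S0 ≤ T ∧
      M ≤ T.map (QuotientGroup.mk' (pPrimeCore 2 X)) := by
  haveI : Fact (Nat.Prime 2) := ⟨Nat.prime_two⟩
  set π := QuotientGroup.mk' (pPrimeCore 2 X) with hπ
  set U := S0.map π ⊔ M with hU
  have hUp : IsPGroup 2 U := (hS0.map π).to_sup_of_normal_right' hM hn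
  set U' := U.comap π with hU'
  have hle : S0 ≤ U' := Subgroup.map_le_iff_le_comap.1 le_sup_left
  have hp : IsPGroup 2 (S0.subgroupOf U') := hS0.comap_of_injective U'.subtype U'.subtype_injective
  obtain ⟨P, hP⟩ := hp.exists_le_sylow
  have hf : Function.Surjective (π.subgroupComap U) :=
    π.subgroupComap_surjective_of_surjective U (QuotientGroup.mk'_surjective _)
  have htop : IsPGroup 2 (⊤ : Subgroup U) := IsPGroup.to_subgroup hUp ⊤
  have hPU : ((P.mapSurjective hf : Sylow 2 U) : Subgroup U) = ⊤ :=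
    ((P.mapSurjective hf).3 htop le_top).symm
  refine ⟨(P : Subgroup U').map U'.subtype, P.2.map _, fun x hx => ⟨⟨x, hle hx⟩, hP hx, rfl⟩,
    fun v hv => ?_⟩
  have hvU : v ∈ U := (le_sup_right : M ≤ U) hv
  obtain ⟨x, hx, hxv⟩ := (hPU.ge (Subgroup.mem_top (⟨v, hvU⟩ : U)) :
    (⟨v, hvU⟩ : U) ∈ (P : Subgroup U').map (π.subgroupComap U))
  exact ⟨(x : X), ⟨x, hx, rfl⟩, congrArg Subtype.val hxv⟩

variable {G : Type u} [Group G] [Finite G]

/-- A 2-element of two distinct 2-components, one of which has a single involution, squares to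
one. -/
theorem Intrinsic.sq_of_mem_inter {z : G} {J H : Subgroup G} (hJ : Intrinsic z J) (hH : IsComp z H)
    (hne : J ≠ H) {x : G} (hxJ : x ∈ J) (hxH : x ∈ H) (hx : IsTwoElt x) : x * x = 1 := by
  obtain ⟨S, hS0, hS⟩ := exists_good hx.isPGroup (Subgroup.zpowers_le.2 (hJ.comp.1 hxJ))
  have hxS : x ∈ S := hS0 (Subgroup.mem_zpowers x)
  exact congrArg Subtype.val (sq_eq_one_of_central (hS.isP.to_le inf_le_left) (hJ.only_inf hS)
    (hJ.not_isCyclic hS) (x := ⟨x, hxS, hxJ⟩) fun r => Subtype.ext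
      (commute_of_mem_core hS.isP r.2.1 hxS (hJ.comp.commutator_mem hH hne r.2.2 hxH)).symm)

theorem exists_involution_pow {x : G} (hx : IsTwoElt x) (h1 : x ≠ 1) :
    ∃ i : ℕ, orderOf (x ^ i) = 2 := by
  obtain ⟨k, hk⟩ := hx
  obtain ⟨l, -, hl⟩ := (Nat.dvd_prime_pow Nat.prime_two).1 (orderOf_dvd_of_pow_eq_one hk)
  cases l with
  | zero => exact absurd (orderOf_eq_one_iff.1 (by rw [hl, pow_zero])) h1
  | succ l => exact ⟨2 ^ l, by
      rw [orderOf_pow' x (by positivity), hl, pow_succ, Nat.gcd_mul_right_left,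
        Nat.mul_div_cancel_left _ (by positivity)]⟩

theorem layOne_map_conj {z g x : G} (hx : x ∈ layOne z) : g * x * g⁻¹ ∈ layOne (g * z * g⁻¹) := by
  set C := Subgroup.centralizer ({z} : Set G)
  set C' := Subgroup.centralizer ({g * z * g⁻¹} : Set G)
  have hmem : ∀ y : G, y ∈ C ↔ g * y * g⁻¹ ∈ C' := fun y => by
    rw [Subgroup.mem_centralizer_singleton_iff, Subgroup.mem_centralizer_singleton_iff]
    constructor
    · intro e
      calc g * y * g⁻¹ * (g * z * g⁻¹) = g * (y * z) * g⁻¹ := by group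
        _ = g * (z * y) * g⁻¹ := by rw [e]
        _ = _ := by group
    · intro e
      calc y * z = g⁻¹ * (g * y * g⁻¹ * (g * z * g⁻¹)) * g := by group
        _ = g⁻¹ * (g * z * g⁻¹ * (g * y * g⁻¹)) * g := by rw [e]
        _ = _ := by group
  let e : ↥C ≃* ↥C' :=
    { toFun := fun y => ⟨g * y * g⁻¹, (hmem _).1 y.2⟩
      invFun := fun y => ⟨g⁻¹ * y * g, (hmem _).2 (by
        rw [show g * (g⁻¹ * (y : G) * g) * g⁻¹ = y by group]; exact y.2)⟩
      left_inv := fun y => Subtype.ext (by show g⁻¹ * (g * (y : G) * g⁻¹) * g = y; group)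
      right_inv := fun y => Subtype.ext (by show g * (g⁻¹ * (y : G) * g) * g⁻¹ = y; group)
      map_mul' := fun y y' => Subtype.ext (by
        show g * ((y : G) * y') * g⁻¹ = g * y * g⁻¹ * (g * y' * g⁻¹); group) }
  obtain ⟨w, hw, rfl⟩ := hx
  exact ⟨e w, (map_pLayer_equiv e).le ⟨w, hw, rfl⟩, rfl⟩

/-- The core case: `y` swaps while its square does not. -/
theorem false_of_not_mem_normalizer {zJ zK : G} {J K : Subgroup G} (hJ : Intrinsic zJ J)
    (hK : Intrinsic zK K) {y : G} (hy : y ∈ K) {k : ℕ} (hk : 2 ≤ k) (hyo : orderOf y = 2 ^ k)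
    (hyz : y * zJ = zJ * y) (hyn : y ∉ Subgroup.normalizer (J : Set G))
    (hy2n : y * y ∈ Subgroup.normalizer (J : Set G)) : False := by
  haveI : Fact (Nat.Prime 2) := ⟨Nat.prime_two⟩
  have hzJ1 := CfsgLib.Involutions.mul_self_eq_one hJ.inv
  have hzK1 := CfsgLib.Involutions.mul_self_eq_one hK.inv
  have hzJi : zJ⁻¹ = zJ := CfsgLib.Involutions.inv_eq_self hJ.inv
  have hzKi : zK⁻¹ = zK := CfsgLib.Involutions.inv_eq_self hK.inv
  have hy2 : IsTwoElt y := ⟨k, by rw [← hyo, pow_orderOf_eq_one]⟩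
  -- the involution is a power of `y`
  obtain ⟨l, rfl⟩ : ∃ l, k = l + 2 := ⟨k - 2, by omega⟩
  have hzKy : y ^ 2 ^ (l + 1) = zK := hK.uniq _ (pow_mem hy _) (by
    rw [orderOf_pow' y (by positivity), hyo, pow_succ 2 (l + 1), Nat.gcd_mul_right_left,
      Nat.mul_div_cancel_left _ (by positivity)])
  have hc : zJ * zK = zK * zJ := by
    rw [← hzKy]; exact ((show Commute zJ y from hyz.symm).pow_right _).eq
  have hKC : zK ∈ Subgroup.centralizer ({zJ} : Set G) :=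
    Subgroup.mem_centralizer_singleton_iff.2 hc.symm
  have hJC : zJ ∈ Subgroup.centralizer ({zK} : Set G) :=
    Subgroup.mem_centralizer_singleton_iff.2 hc
  have hne : zJ ≠ zK := fun e => hyn (hJ.comp.layOne_le_normalizer (e ▸ hK.comp.le_layOne hy))
  have hyne : y * y ≠ 1 := fun h => by
    have h1 : orderOf y ∣ 2 := orderOf_dvd_of_pow_eq_one (by rw [pow_two, h])
    have h2 := Nat.le_of_dvd two_pos h1
    rw [hyo] at h2
    have : 2 ^ 2 ≤ 2 ^ (l + 2) := Nat.pow_le_pow_right two_pos (by omega)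
    omega
  -- each involution normalises the other component
  have hKn : zJ ∈ Subgroup.normalizer (K : Set G) := by
    by_contra h
    have hK1 := hK.comp.map_conj_of_mem hJC
    refine hyne (hK.sq_of_mem_inter hK1 (fun e => h
      (Subgroup.mem_normalizer_iff_map_conj_eq.2 e.symm)) hy ⟨y, hy, ?_⟩ hy2)
    show zJ * y * zJ⁻¹ = y
    rw [← hyz, mul_inv_cancel_right]
  have hJn : zK ∈ Subgroup.normalizer (J : Set G) := mem_normalizer_of_mem_normalizer hJ hK hKn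
  have hnK : ¬ CentralisesMod zK K zJ := fun h => hyn (hJ.comp.layOne_le_normalizer
    (layTwo_le_layOne (isTwoElt_of_sq hzK1) hc (layTwo_comm zK zJ ▸
      mem_layTwo_of_centralised hK.comp hJC (isTwoElt_of_sq hzJ1) h hy2 hy hyz)))
  have hnJ : ¬ CentralisesMod zJ J zK := fun h => by
    have h1 := layTwo_comm zJ zK ▸ mem_layTwo_of_centralised hJ.comp hKC (isTwoElt_of_sq hzK1) h
      (isTwoElt_of_sq hzJ1) hJ.mem hc
    exact hnK (centralisesMod_of_layTwo hK hJC hJ.inv hKn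
      (Or.inr ⟨layTwo_le_layOne (isTwoElt_of_sq hzJ1) hc.symm h1, hnK⟩) h1)
  -- the set-up in a good subgroup
  obtain ⟨S, hS0, hS⟩ := exists_good hy2.isPGroup
    (Subgroup.zpowers_le.2 (Subgroup.mem_centralizer_singleton_iff.2 hyz))
  have hyS : y ∈ S := hS0 (Subgroup.mem_zpowers y)
  have hzKS : zK ∈ S := hzKy ▸ pow_mem hyS _
  have hzJS : zJ ∈ S := hJ.z_mem_good hS
  obtain ⟨w, hwR, hw4, hwz'⟩ := hJ.exists_twisted hS hK.inv hzKS hJn hnJ
  set J' := J.map (MulAut.conj y).toMonoidHom with hJ'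
  have hJ'c : IsComp zJ J' :=
    hJ.comp.map_conj_of_mem (Subgroup.mem_centralizer_singleton_iff.2 hyz)
  have hJ'ne : J ≠ J' := fun e => hyn (Subgroup.mem_normalizer_iff_map_conj_eq.2 e.symm)
  obtain ⟨w', hw'⟩ : ∃ w', w' = y * w * y⁻¹ := ⟨_, rfl⟩
  obtain ⟨w'', hw''⟩ : ∃ w'', w'' = y * w' * y⁻¹ := ⟨_, rfl⟩
  have hw'S : w' ∈ S := hw' ▸ mul_mem (mul_mem hyS hwR.1) (inv_mem hyS)
  have hw'J : w' ∈ J' := hw' ▸ ⟨w, hwR.2, rfl⟩
  have hw''S : w'' ∈ S := hw'' ▸ mul_mem (mul_mem hyS hw'S) (inv_mem hyS)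
  have hw''J : w'' ∈ J := by
    rw [hw'', hw', show y * (y * w * y⁻¹) * y⁻¹ = (y * y) * w * (y * y)⁻¹ by group]
    exact (Subgroup.mem_normalizer_iff.1 hy2n w).1 hwR.2
  have hww' : w * w' = w' * w := commute_of_mem_core hS.isP hwR.1 hw'S
    (hJ.comp.commutator_mem hJ'c hJ'ne hwR.2 hw'J)
  have hw''w' : w'' * w' = w' * w'' := commute_of_mem_core hS.isP hw''S hw'S
    (hJ.comp.commutator_mem hJ'c hJ'ne hw''J hw'J)
  have hw2 := hJ.sq_four hwR.2 hw4
  have hwJ : w * zJ = zJ * w := hJ.central hwR.2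
  have hyK : y * zK = zK * y := hK.central hy
  have hw'2 : w' * w' = zJ := by
    rw [hw', show y * w * y⁻¹ * (y * w * y⁻¹) = y * (w * w) * y⁻¹ by group, hw2, hyz,
      mul_inv_cancel_right]
  have hw'J2 : w' * zJ = zJ * w' := Subgroup.mem_centralizer_singleton_iff.1 (hJ'c.1 hw'J)
  obtain ⟨d, hd⟩ : ∃ d, d = w * w' := ⟨_, rfl⟩
  have hdS : d ∈ S := hd ▸ mul_mem hwR.1 hw'S
  have hd2 : d * d = 1 := by
    rw [hd, show w * w' * (w * w') = w * (w' * w) * w' by group, ← hww',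
      show w * (w * w') * w' = (w * w) * (w' * w') by group, hw2, hw'2, hzJ1]
  have hdz : d * zJ = zJ * d := by rw [hd, mul_assoc, hw'J2, ← mul_assoc, hwJ, mul_assoc]
  have hwz : w * zK * w⁻¹ = zK * zJ := by
    calc w * zK * w⁻¹ = zK * (zK * w * zK⁻¹) * (zK * zK) * w⁻¹ := by
          rw [show zK * (zK * w * zK⁻¹) * (zK * zK) * w⁻¹ = (zK * zK) * w * zK * w⁻¹ by group,
            hzK1, one_mul]
      _ = zK * (w * zJ) * w⁻¹ := by rw [hwz', hzK1, mul_one]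
      _ = zK * zJ := by rw [hwJ, mul_assoc, mul_assoc zJ, mul_inv_cancel, mul_one]
  have hw'z : w' * zK * w'⁻¹ = zK * zJ := by
    calc w' * zK * w'⁻¹ = y * (w * (y⁻¹ * (zK * y)) * w⁻¹) * y⁻¹ := by rw [hw']; group
      _ = y * (zK * zJ) * y⁻¹ := by rw [← hyK, inv_mul_cancel_left, hwz]
      _ = zK * zJ := by rw [← mul_assoc, hyK, mul_assoc zK, hyz, ← mul_assoc, mul_inv_cancel_right]
  have hdK : d * zK = zK * d := by
    refine mul_inv_eq_iff_eq_mul.1 ?_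
    calc d * zK * d⁻¹ = w * (w' * zK * w'⁻¹) * w⁻¹ := by rw [hd]; group
      _ = (w * zK * w⁻¹) * (w * zJ * w⁻¹) := by rw [hw'z]; group
      _ = zK := by rw [hwz, hwJ, mul_inv_cancel_right, mul_assoc, hzJ1, mul_one]
  obtain ⟨z', hz'⟩ : ∃ z', z' = w * w''⁻¹ := ⟨_, rfl⟩
  have hz'S : z' ∈ S := hz' ▸ mul_mem hwR.1 (inv_mem hw''S)
  have hz'J : z' ∈ J := hz' ▸ mul_mem hwR.2 (inv_mem hw''J)
  have hdy' : d * y * d⁻¹ = z' * y := by
    calc d * y * d⁻¹ = d * (w' * (y * w' * y⁻¹))⁻¹ * y := by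
          rw [hd, show y * w' * y⁻¹ = w'' from hw''.symm]
          rw [show w * w' * y * (w * w')⁻¹ = w * w' * ((y * w * y⁻¹) * (y * w' * y⁻¹))⁻¹ * y by group,
            ← hw', ← hw'']
      _ = d * (w'' * w')⁻¹ * y := by rw [← hw'', hw''w']
      _ = z' * y := by rw [hd, hz']; group
  have hz'1 : z' ≠ 1 := by
    intro h
    rw [hz', mul_inv_eq_one, hw'', hw',
      show y * (y * w * y⁻¹) * y⁻¹ = (y * y) * w * (y * y)⁻¹ by group] at h
    have hcom : Commute (y * y) w := (mul_inv_eq_iff_eq_mul.1 h.symm : (y * y) * w = w * (y * y))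
    have hcz : zK * w = w * zK := by
      have := (hcom.pow_left (2 ^ l)).eq
      rwa [← pow_two, ← pow_mul, ← pow_succ', hzKy] at this
    rw [hcz, mul_inv_cancel_right] at hwz'
    exact CfsgLib.Involutions.ne_one hJ.inv (mul_eq_left.1 hwz'.symm)
  have hdC : d ∈ Subgroup.centralizer ({zK} : Set G) := Subgroup.mem_centralizer_singleton_iff.2 hdK
  set K' := K.map (MulAut.conj d).toMonoidHom with hK'
  have hK'c : IsComp zK K' := hK.comp.map_conj_of_mem hdC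
  have hKK' : K ≠ K' := by
    intro e
    have hmem : z' * y ∈ K := e.symm ▸ (⟨y, hy, hdy'⟩ : z' * y ∈ K')
    have hz'K : z' ∈ K := (Subgroup.mul_mem_cancel_right _ hy).1 hmem
    obtain ⟨i, hi⟩ := exists_involution_pow (isTwoElt_of_isPGroup hS.isP hz'S) hz'1
    exact hne ((hJ.uniq _ (pow_mem hz'J i) hi).symm.trans (hK.uniq _ (pow_mem hz'K i) hi))
  -- the commutator is the involution
  have hy'K : z' * y ∈ K' := ⟨y, hy, hdy'⟩
  have hyy' : y * (z' * y) = (z' * y) * y := commute_of_mem_core hS.isP hyS (mul_mem hz'S hyS)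
    (hK.comp.commutator_mem hK'c hKK' hy hy'K)
  have hyz' : y * z' * y⁻¹ = z' := by
    rw [← mul_assoc] at hyy'
    exact mul_inv_eq_iff_eq_mul.2 (mul_right_cancel hyy')
  have hz'e : z' = zJ := hJ.uniq _ hz'J (CfsgLib.Involutions.orderOf_eq_two_iff.2
    ⟨hJ.sq_of_mem_inter hJ'c hJ'ne hz'J ⟨z', hz'J, hyz'⟩ (isTwoElt_of_isPGroup hS.isP hz'S), hz'1⟩)
  have hdy : d * y * d⁻¹ = y * zJ := by rw [hdy', hz'e, hyz]
  -- `y` has order four
  have hy4 : orderOf y = 4 := by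
    have hyy : y * y ∈ K' := by
      have h1 : y * y = (y * zJ) * (y * zJ) := by
        rw [show y * zJ * (y * zJ) = y * (zJ * y) * zJ by group, ← hyz,
          show y * (y * zJ) * zJ = y * y * (zJ * zJ) by group, hzJ1, mul_one]
      rw [h1]
      exact mul_mem ⟨y, hy, hdy⟩ ⟨y, hy, hdy⟩
    have h := hK.sq_of_mem_inter hK'c hKK' (mul_mem hy hy) hyy
      (isTwoElt_of_isPGroup hS.isP (mul_mem hyS hyS))
    exact orderOf_eq_prime_pow (p := 2) (n := 1) (by rw [pow_one, pow_two]; exact hyne)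
      (by rw [show (2 : ℕ) ^ (1 + 1) = 2 + 2 by norm_num, pow_add, pow_two]; exact h)
  have hyy2 := hK.sq_four hy hy4
  have hwy : w⁻¹ * y * w = y * d := by
    have hyi : y⁻¹ = zK * y := inv_eq_of_mul_eq_one_right (by
      rw [← mul_assoc, hyK, mul_assoc, hyy2, hzK1])
    have e1 : y⁻¹ * w * y = w' * zJ := by
      have hw''e : w = w'' * zJ := by
        rw [hJ.central hw''J, ← hz'e, hz', inv_mul_cancel_right]
      calc y⁻¹ * w * y = (y⁻¹ * w'' * y) * (y⁻¹ * (zJ * y)) := by rw [hw''e]; group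
        _ = w' * zJ := by rw [← hyz, inv_mul_cancel_left, hw'']; group
    have hw'i : w'⁻¹ = w' * zJ := inv_eq_of_mul_eq_one_right (by rw [← mul_assoc, hw'2, hzJ1])
    calc w⁻¹ * y * w = y * ((y⁻¹ * w * y)⁻¹ * w) := by group
      _ = y * (w' * w) := by rw [e1, ← hw'i, inv_inv]
      _ = y * d := by rw [hd, hww']
  -- a good subgroup for `zK`
  set S0 := S ⊓ Subgroup.centralizer ({zK} : Set G) with hS0def
  have hS0p : IsPGroup 2 S0 := hS.isP.to_le inf_le_left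
  obtain ⟨T, hT0, hT⟩ := exists_good hS0p inf_le_right
  have hzJT : zJ ∈ T := hT0 ⟨hzJS, hJC⟩
  have hdT : d ∈ T := hT0 ⟨hdS, hdC⟩
  have hyT : y ∈ T := hT0 ⟨hyS, hK.comp.1 hy⟩
  obtain ⟨m, hmR, hm4, hm⟩ := hK.exists_twisted hT hJ.inv hzJT hKn hnK
  -- properties of a twisting element
  have props : ∀ (U : Subgroup G), IsPGroup 2 U → y ∈ U → d ∈ U → zJ ∈ U → ∀ b ∈ U, b ∈ K →
      zJ * b * zJ⁻¹ = b * zK →
      (b * (d * b * d⁻¹) = (d * b * d⁻¹) * b) ∧ (y * (d * b * d⁻¹) = (d * b * d⁻¹) * y) ∧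
        b * y * b⁻¹ = y * zK := by
    intro U hU hyU hdU hzU b hbU hbK hb
    have hb' : d * b * d⁻¹ ∈ K' := ⟨b, hbK, rfl⟩
    refine ⟨commute_of_mem_core hU hbU (mul_mem (mul_mem hdU hbU) (inv_mem hdU))
      (hK.comp.commutator_mem hK'c hKK' hbK hb'), commute_of_mem_core hU hyU
      (mul_mem (mul_mem hdU hbU) (inv_mem hdU)) (hK.comp.commutator_mem hK'c hKK' hy hb'), ?_⟩
    have hcomm : b * (y * zJ) = (y * zJ) * b := commute_of_mem_core hU hbU (mul_mem hyU hzU)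
      (hK.comp.commutator_mem hK'c hKK' hbK ⟨y, hy, hdy⟩)
    have h1 : b * y = y * b * zK := by
      calc b * y = b * (y * zJ) * zJ⁻¹ := by group
        _ = y * (zJ * b * zJ⁻¹) := by rw [hcomm]; group
        _ = y * b * zK := by rw [hb, mul_assoc]
    rw [h1, mul_assoc y, hK.central hbK, ← mul_assoc, mul_inv_cancel_right]
  obtain ⟨hmm, hym, hmy⟩ := props T hT.isP hyT hdT hzJT m hmR.1 hmR.2 hm
  have hm2 := hK.sq_four hmR.2 hm4
  obtain ⟨c, hcdef⟩ : ∃ c, c = m * (d * m * d⁻¹) := ⟨_, rfl⟩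
  have hnc : c ∉ layOne zJ := hcdef ▸ not_mem_layOne_of_twist hK hJ.inv hc hy hy4 hdz hdy hdK hd2
    hwy hwz hwJ hmR.2 hmy hm hmm hm2 hym hne
  have hcT : c ∈ T := hcdef ▸ mul_mem hmR.1 (mul_mem (mul_mem hdT hmR.1) (inv_mem hdT))
  -- facts about `c`
  have hmz : m * zJ * m⁻¹ = zJ * zK := by
    calc m * zJ * m⁻¹ = zJ * (zJ * m * zJ⁻¹) * (zJ * zJ) * m⁻¹ := by
          rw [show zJ * (zJ * m * zJ⁻¹) * (zJ * zJ) * m⁻¹ = (zJ * zJ) * m * zJ * m⁻¹ by group,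
            hzJ1, one_mul]
      _ = zJ * (m * zK) * m⁻¹ := by rw [hm, hzJ1, mul_one]
      _ = zJ * zK := by rw [hK.central hmR.2, mul_assoc, mul_assoc zK, mul_inv_cancel, mul_one]
  have hdmz : (d * m * d⁻¹) * zJ * (d * m * d⁻¹)⁻¹ = zJ * zK := by
    calc (d * m * d⁻¹) * zJ * (d * m * d⁻¹)⁻¹
        = d * (m * (d⁻¹ * (zJ * d)) * m⁻¹) * d⁻¹ := by group
      _ = d * (zJ * zK) * d⁻¹ := by rw [← hdz, inv_mul_cancel_left, hmz]
      _ = zJ * zK := by rw [← mul_assoc, hdz, mul_assoc zJ, hdK, ← mul_assoc, mul_inv_cancel_right]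
  have hcz : c * zJ = zJ * c := by
    refine mul_inv_eq_iff_eq_mul.1 ?_
    calc c * zJ * c⁻¹ = m * ((d * m * d⁻¹) * zJ * (d * m * d⁻¹)⁻¹) * m⁻¹ := by rw [hcdef]; group
      _ = (m * zJ * m⁻¹) * (m * zK * m⁻¹) := by rw [hdmz]; group
      _ = zJ := by rw [hmz, hK.central hmR.2, mul_inv_cancel_right, mul_assoc, hzK1, mul_one]
  have hc2 : c * c = 1 := by
    rw [hcdef, show m * (d * m * d⁻¹) * (m * (d * m * d⁻¹)) =
      m * ((d * m * d⁻¹) * m) * (d * m * d⁻¹) by group, ← hmm,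
      show m * (m * (d * m * d⁻¹)) * (d * m * d⁻¹) = (m * m) * (d * (m * m) * d⁻¹) by group, hm2,
      hdK, mul_inv_cancel_right, hzK1]
  -- the diagonal element
  obtain ⟨g, hg⟩ : ∃ g, g = w * m := ⟨_, rfl⟩
  have hgJ : g * zJ * g⁻¹ = zK := by
    calc g * zJ * g⁻¹ = w * (m * zJ * m⁻¹) * w⁻¹ := by rw [hg]; group
      _ = (w * zJ * w⁻¹) * (w * zK * w⁻¹) := by rw [hmz]; group
      _ = zJ * (zK * zJ) := by rw [hwJ, mul_inv_cancel_right, hwz]
      _ = zK := by rw [← hc, ← mul_assoc, hzJ1, one_mul]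
  have hgK : g * zK * g⁻¹ = zK * zJ := by
    calc g * zK * g⁻¹ = w * (m * zK * m⁻¹) * w⁻¹ := by rw [hg]; group
      _ = zK * zJ := by rw [hK.central hmR.2, mul_inv_cancel_right, hwz]
  have hJ3 : Intrinsic zJ (K.map (MulAut.conj g⁻¹).toMonoidHom) := by
    have h := hK.map_conj g⁻¹
    rwa [show g⁻¹ * zK * g⁻¹⁻¹ = zJ by rw [← hgJ]; group] at h
  obtain ⟨j, hj⟩ : ∃ j, j = g⁻¹ * y * g := ⟨_, rfl⟩
  have hjmem : j ∈ K.map (MulAut.conj g⁻¹).toMonoidHom := ⟨y, hy, by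
    show g⁻¹ * y * g⁻¹⁻¹ = j; rw [hj, inv_inv]⟩
  have hjK : j * zK = zK * j := by
    have h1 : y * (g * zK * g⁻¹) = (g * zK * g⁻¹) * y := by
      rw [hgK, ← mul_assoc, hyK, mul_assoc, hyz, mul_assoc]
    calc j * zK = g⁻¹ * (y * (g * zK * g⁻¹)) * g := by rw [hj]; group
      _ = g⁻¹ * ((g * zK * g⁻¹) * y) * g := by rw [h1]
      _ = zK * j := by rw [hj]; group
  have hj2 : j * j = zJ := by
    rw [hj, show g⁻¹ * y * g * (g⁻¹ * y * g) = g⁻¹ * (y * y) * g by group, hyy2, ← hgJ]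
    group
  have hcy : c * y * c⁻¹ = y * zK := by
    rw [hcdef, show m * (d * m * d⁻¹) * y * (m * (d * m * d⁻¹))⁻¹ =
      m * ((d * m * d⁻¹) * y * (d * m * d⁻¹)⁻¹) * m⁻¹ by group, ← hym, mul_inv_cancel_right, hmy]
  have hcd : c * d = d * c := by
    refine (mul_inv_eq_iff_eq_mul.1 ?_).symm
    rw [hcdef, show d * (m * (d * m * d⁻¹)) * d⁻¹ = (d * m * d⁻¹) * ((d * d) * m * (d * d)⁻¹) by
      group, hd2, one_mul, inv_one, mul_one]
    exact hmm.symm
  have hcj : c * j * c⁻¹ = zK * j := by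
    have hcm : m * c * m⁻¹ = c := by
      refine mul_inv_eq_iff_eq_mul.2 ?_
      rw [hcdef, mul_assoc m (d * m * d⁻¹) m, ← hmm]
    have e : g * (c * j * c⁻¹) * g⁻¹ = (g * zK * g⁻¹) * y := by
      calc g * (c * j * c⁻¹) * g⁻¹ = (g * c * g⁻¹) * y * (g * c * g⁻¹)⁻¹ := by rw [hj]; group
        _ = (w * c * w⁻¹) * y * (w * c * w⁻¹)⁻¹ := by
            rw [show g * c * g⁻¹ = w * (m * c * m⁻¹) * w⁻¹ by rw [hg]; group, hcm]
        _ = w * ((c * y * c⁻¹) * (c * (y⁻¹ * (w⁻¹ * y * w)) * c⁻¹)) * w⁻¹ := by group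
        _ = w * (y * zK * d) * w⁻¹ := by
            rw [hwy, inv_mul_cancel_left, hcd, mul_inv_cancel_right, hcy]
        _ = w * (zK * (w⁻¹ * y * w)) * w⁻¹ := by rw [hwy, hK.central hy, mul_assoc zK]
        _ = (w * zK * w⁻¹) * y := by group
        _ = _ := by rw [hwz, hgK]
    calc c * j * c⁻¹ = g⁻¹ * (g * (c * j * c⁻¹) * g⁻¹) * g := by group
      _ = g⁻¹ * ((g * zK * g⁻¹) * y) * g := by rw [e]
      _ = zK * j := by rw [hj]; group
  have hu : zK * zJ ∈ layTwo zJ c := by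
    have hcC : c ∈ Subgroup.centralizer ({zJ} : Set G) := Subgroup.mem_centralizer_singleton_iff.2 hcz
    have hmv : (K.map (MulAut.conj g⁻¹).toMonoidHom).map (MulAut.conj c).toMonoidHom ≠
        K.map (MulAut.conj g⁻¹).toMonoidHom := by
      intro e
      have hmem : zK * j ∈ K.map (MulAut.conj g⁻¹).toMonoidHom := e.le ⟨j, hjmem, hcj⟩
      exact hne (hJ3.uniq zK ((Subgroup.mul_mem_cancel_right _ hjmem).1 hmem) hK.inv).symm
    have h := mem_layTwo_of_diag hJ3.comp hcC hc2 hmv (x := j) ?_ hjmem (by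
      rw [hcj, ← mul_assoc, hjK, mul_assoc])
    · rwa [hcj, ← mul_assoc, hjK, mul_assoc, hj2] at h
    · exact ⟨2, by rw [show (2 : ℕ) ^ 2 = 2 + 2 by norm_num, pow_add, pow_two, hj2, hzJ1]⟩
  have huJ : zK * zJ ∈ layOne zJ := layTwo_le_layOne (isTwoElt_of_sq hc2) hcz.symm hu
  have huc : zK * zJ ∈ layOne c :=
    layTwo_le_layOne (isTwoElt_of_sq hzJ1) hcz (layTwo_comm zJ c ▸ hu)
  have hzKJ : zK ∈ layOne zJ := by
    have := mul_mem huJ (hJ.comp.le_layOne hJ.mem)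
    rwa [mul_assoc, hzJ1, mul_one] at this
  -- an element of `K` carrying `m` to `y⁻¹`
  obtain ⟨r, hr⟩ := exists_conj_of_orderOf_four hK.commutator_eq_top hK.only
    (x := (⟨m, hmR.2⟩ : K)) (y := (⟨y⁻¹, inv_mem hy⟩ : K))
    ((Subgroup.orderOf_mk m _).trans hm4) ((Subgroup.orderOf_mk _ _).trans (by rw [orderOf_inv, hy4]))
  have hr' : (r : G) * m * (r : G)⁻¹ = y⁻¹ := congrArg Subtype.val hr
  -- work modulo the core of the centraliser of `zK`
  set C := Subgroup.centralizer ({zK} : Set G) with hC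
  set π := QuotientGroup.mk' (pPrimeCore 2 ↥C) with hπ
  have hmC : m ∈ C := hK.comp.1 hmR.2
  have hyC : y ∈ C := hK.comp.1 hy
  have hcomm : ∀ (a b : C), (a : G) ∈ K → (b : G) ∈ K' → π a * π b = π b * π a := by
    intro a b ha hb
    have h : π (a * b * a⁻¹ * b⁻¹) = 1 := (QuotientGroup.eq_one_iff _).2
      (mem_core_of_coe (hK.comp.commutator_mem hK'c hKK' ha hb))
    rw [map_mul, map_mul, map_mul, map_inv, map_inv] at h
    exact mul_inv_eq_iff_eq_mul.1 (mul_inv_eq_one.1 h)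
  obtain ⟨Y, hY⟩ : ∃ Y : C, Y = ⟨y, hyC⟩ := ⟨_, rfl⟩
  obtain ⟨M, hMd⟩ : ∃ M : C, M = ⟨m, hmC⟩ := ⟨_, rfl⟩
  obtain ⟨D, hD⟩ : ∃ D : C, D = ⟨d, hdC⟩ := ⟨_, rfl⟩
  obtain ⟨R, hR⟩ : ∃ R : C, R = ⟨(r : G), hK.comp.1 r.2⟩ := ⟨_, rfl⟩
  obtain ⟨ZJ, hZJ⟩ : ∃ Z : C, Z = ⟨zJ, hJC⟩ := ⟨_, rfl⟩
  obtain ⟨ZK, hZK⟩ : ∃ Z : C, Z = ⟨zK, hK.comp.1 hK.mem⟩ := ⟨_, rfl⟩
  have eR : R * M * R⁻¹ = Y⁻¹ := by rw [hR, hMd, hY]; exact Subtype.ext hr'
  have eY2 : Y * Y = ZK := by rw [hY, hZK]; exact Subtype.ext hyy2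
  have eDY : D * Y * D⁻¹ = Y * ZJ := by rw [hD, hY, hZJ]; exact Subtype.ext hdy
  have eMY : M * Y * M⁻¹ = Y * ZK := by rw [hMd, hY, hZK]; exact Subtype.ext hmy
  have eZKc : ∀ x : C, x * ZK = ZK * x := fun x => by
    rw [hZK]; exact Subtype.ext (Subgroup.mem_centralizer_singleton_iff.1 x.2)
  have eZK1 : ZK * ZK = 1 := by rw [hZK]; exact Subtype.ext hzK1
  have eYMY : Y * M * Y⁻¹ = ZK * M := by
    have eMY' : M * Y = Y * ZK * M := mul_inv_eq_iff_eq_mul.1 eMY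
    calc Y * M * Y⁻¹ = ZK * (ZK * (Y * M)) * Y⁻¹ := by rw [← mul_assoc ZK ZK, eZK1, one_mul]
      _ = ZK * (M * Y) * Y⁻¹ := by rw [eMY', ← mul_assoc ZK Y M, ← eZKc Y]
      _ = ZK * M := by group
  obtain ⟨R', hR'⟩ : ∃ R' : C, R' = D * (R * Y) * D⁻¹ := ⟨_, rfl⟩
  have hR'K : (R' : G) ∈ K' := by
    rw [hR', hR, hY, hD]
    exact ⟨(r : G) * y, mul_mem r.2 hy, rfl⟩
  have hDM : ((D * M * D⁻¹ : C) : G) ∈ K' := by rw [hD, hMd]; exact ⟨m, hmR.2, rfl⟩
  obtain ⟨A, hA⟩ : ∃ A : C, A = R * Y * R⁻¹ := ⟨_, rfl⟩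
  have hAK : (A : G) ∈ K := by
    rw [hA, hR, hY]; exact mul_mem (mul_mem r.2 hy) (inv_mem r.2)
  -- images of `c` and `zJ` under `h = r * r'`
  have hdec : ∀ a b : C, (a : G) ∈ K → (b : G) ∈ K' →
      π ((R * R') * (a * b) * (R * R')⁻¹) = π (R * a * R⁻¹) * π (R' * b * R'⁻¹) := by
    intro a b ha hb
    have hRK : (R : G) ∈ K := by rw [hR]; exact r.2
    have h1 := hcomm a R' ha hR'K
    have h2 := hcomm R (R' * b * R'⁻¹) hRK
      (mul_mem (mul_mem hR'K hb) (inv_mem hR'K))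
    simp only [map_mul, map_inv] at h2 ⊢
    calc π R * π R' * (π a * π b) * (π R * π R')⁻¹
        = π R * ((π R' * π a) * π b * (π R')⁻¹) * (π R)⁻¹ := by group
      _ = π R * ((π a * π R') * π b * (π R')⁻¹) * (π R)⁻¹ := by rw [h1]
      _ = π R * π a * (π R)⁻¹ * (π R * (π R' * π b * (π R')⁻¹)) * (π R)⁻¹ := by group
      _ = π R * π a * (π R)⁻¹ * ((π R' * π b * (π R')⁻¹) * π R) * (π R)⁻¹ := by rw [h2]
      _ = _ := by group
  have eR' : R' * (D * M * D⁻¹) * R'⁻¹ = Y * ZJ := by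
    calc R' * (D * M * D⁻¹) * R'⁻¹ = D * (R * (Y * M * Y⁻¹) * R⁻¹) * D⁻¹ := by rw [hR']; group
      _ = D * ((R * ZK * R⁻¹) * (R * M * R⁻¹)) * D⁻¹ := by rw [eYMY]; group
      _ = D * (ZK * Y⁻¹) * D⁻¹ := by rw [eR, eZKc R, mul_inv_cancel_right]
      _ = D * Y * D⁻¹ := by
          rw [show ZK * Y⁻¹ = Y from by rw [← eY2, mul_inv_cancel_right]]
      _ = Y * ZJ := eDY
  have hhc : π ((R * R') * (M * (D * M * D⁻¹)) * (R * R')⁻¹) = π ZJ := by
    rw [hdec M _ (by rw [hMd]; exact hmR.2) hDM, eR, eR', ← map_mul, inv_mul_cancel_left]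
  have hhz : π ((R * R') * ZJ * (R * R')⁻¹) = π A⁻¹ * π (D * A * D⁻¹) := by
    have e : ZJ = Y⁻¹ * (D * Y * D⁻¹) := by rw [eDY, inv_mul_cancel_left]
    conv_lhs => rw [e]
    rw [hdec Y⁻¹ _ (by rw [hY]; exact inv_mem hy) (by rw [hD, hY]; exact ⟨y, hy, rfl⟩)]
    congr 1
    · congr 1; rw [hA]; group
    · congr 1; rw [hR', hA]; group
  -- adjust by the core
  obtain ⟨c1, hc1⟩ : ∃ c1 : C, c1 = (R * R') * (M * (D * M * D⁻¹)) * (R * R')⁻¹ := ⟨_, rfl⟩
  have ecC : ((M * (D * M * D⁻¹) : C) : G) = c := by rw [hMd, hD, hcdef]; rfl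
  have hco : orderOf c = 2 := CfsgLib.Involutions.orderOf_eq_two_iff.2
    ⟨hc2, fun h => hnc (h ▸ one_mem _)⟩
  have hc1o : orderOf c1 = 2 := by
    rw [hc1, CfsgLib.Involutions.orderOf_conj, ← Subgroup.orderOf_coe, ecC, hco]
  have hZJo : orderOf ZJ = 2 := by rw [hZJ, Subgroup.orderOf_mk, hJ.inv]
  have hodd : Odd (orderOf (c1 * ZJ)) := by
    refine Nat.coprime_two_right.1 (Nat.Coprime.coprime_dvd_left
      (Subgroup.orderOf_dvd_natCard (pPrimeCore 2 ↥C) ?_) (CfsgLib.Cores.card_pPrimeCore_coprime 2))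
    rw [← QuotientGroup.eq_one_iff]
    show π (c1 * ZJ) = 1
    rw [map_mul, hc1, hhc, ← map_mul]
    rw [show ZJ * ZJ = 1 from CfsgLib.Involutions.mul_self_eq_one hZJo, map_one]
  obtain ⟨o, ho, hoc⟩ := CfsgLib.Involutions.exists_conj_eq_of_odd hc1o hZJo hodd
  have hoπ : π o = 1 ∨ π o = π ZJ := by
    have hle : Subgroup.closure ({c1, ZJ} : Set C) ≤ (Subgroup.zpowers (π ZJ)).comap π := by
      rw [Subgroup.closure_le]
      rintro v (rfl | rfl)
      · exact Subgroup.mem_comap.2 (by rw [hc1, hhc]; exact Subgroup.mem_zpowers _)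
      · exact Subgroup.mem_comap.2 (Subgroup.mem_zpowers _)
    obtain ⟨i, hi⟩ := Subgroup.mem_zpowers_iff.1 (Subgroup.mem_comap.1 (hle ho))
    have h2 : π ZJ * π ZJ = 1 := by
      rw [← map_mul, CfsgLib.Involutions.mul_self_eq_one hZJo, map_one]
    rcases Int.even_or_odd i with ⟨t, ht⟩ | ⟨t, ht⟩
    · refine Or.inl ?_
      rw [← hi, ht, zpow_add, ← (Commute.refl (π ZJ)).mul_zpow, h2, one_zpow]
    · refine Or.inr ?_
      rw [← hi, ht, zpow_add, zpow_one, zpow_mul, zpow_two, h2, one_zpow, one_mul]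
  obtain ⟨h2', hh2⟩ : ∃ h : C, h = o * (R * R') := ⟨_, rfl⟩
  have ehc : (h2' : G) * c * (h2' : G)⁻¹ = zJ := by
    have : h2' * (M * (D * M * D⁻¹)) * h2'⁻¹ = ZJ := by
      rw [hh2, ← hoc, hc1]; group
    have := congrArg Subtype.val this
    rw [hZJ] at this
    rwa [Subgroup.coe_mul, Subgroup.coe_mul, ecC, Subgroup.coe_inv] at this
  obtain ⟨v, hv⟩ : ∃ v : C, v = h2' * ZJ * h2'⁻¹ := ⟨_, rfl⟩
  have hvL : (v : G) ∈ layOne zJ := by
    have h := layOne_map_conj (g := (h2' : G)) huc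
    rw [ehc] at h
    have e : (h2' : G) * (zK * zJ) * (h2' : G)⁻¹ = zK * (v : G) := by
      rw [hv, hZJ, Subgroup.coe_mul, Subgroup.coe_mul, Subgroup.coe_inv,
        ← mul_assoc _ zK zJ, Subgroup.mem_centralizer_singleton_iff.1 h2'.2]
      group
    rw [e] at h
    have := mul_mem (inv_mem hzKJ) h
    rwa [inv_mul_cancel_left] at this
  -- a twisting element over `A⁻¹`
  have eAY : π ZJ * π A⁻¹ * (π ZJ)⁻¹ = π A⁻¹ * π ZK := by
    have e1 : M⁻¹ * Y * M = Y * ZK := by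
      calc M⁻¹ * Y * M = M⁻¹ * (Y * ZK) * M * (M⁻¹ * ZK * M)⁻¹ := by group
        _ = M⁻¹ * (M * Y * M⁻¹) * M * (M⁻¹ * (M * ZK))⁻¹ := by
            rw [eMY, mul_assoc M⁻¹ ZK M, ← eZKc M]
        _ = Y * ZK⁻¹ := by group
        _ = Y * ZK := by rw [inv_eq_of_mul_eq_one_right eZK1]
    have e2 : Y * A * Y⁻¹ = A * ZK := by
      have hY' : Y = R * M⁻¹ * R⁻¹ := by rw [← inv_inv Y, ← eR]; group
      calc Y * A * Y⁻¹ = R * (M⁻¹ * Y * M) * R⁻¹ := by
            conv_lhs => rw [hA]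
            conv_lhs => arg 1; arg 1; rw [hY']
            conv_lhs => arg 2; rw [hY']
            group
        _ = (R * Y * R⁻¹) * (R * ZK * R⁻¹) := by rw [e1]; group
        _ = A * ZK := by rw [← hA, eZKc R, mul_inv_cancel_right]
    have e : ZJ = Y⁻¹ * (D * Y * D⁻¹) := by rw [eDY, inv_mul_cancel_left]
    have h1 : π A⁻¹ * π (D * Y * D⁻¹) = π (D * Y * D⁻¹) * π A⁻¹ :=
      hcomm A⁻¹ _ (inv_mem hAK) (by rw [hD, hY]; exact ⟨y, hy, rfl⟩)
    have h3 : Y⁻¹ * A⁻¹ * Y = A⁻¹ * ZK := by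
      have h4 : A * ZK = ZK * A := eZKc A
      calc Y⁻¹ * A⁻¹ * Y = (Y⁻¹ * A * Y)⁻¹ := by group
        _ = (A * ZK)⁻¹ := by
            congr 1
            calc Y⁻¹ * A * Y = Y⁻¹ * (Y * A * Y⁻¹) * Y * (Y⁻¹ * ZK * Y)⁻¹ := by
                  rw [e2]; group
              _ = A * ZK⁻¹ := by rw [mul_assoc Y⁻¹ ZK, ← eZKc Y]; group
              _ = A * ZK := by rw [inv_eq_of_mul_eq_one_right eZK1]
        _ = A⁻¹ * ZK := by
            rw [h4, mul_inv_rev, inv_eq_of_mul_eq_one_right eZK1]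
    calc π ZJ * π A⁻¹ * (π ZJ)⁻¹
        = π Y⁻¹ * (π (D * Y * D⁻¹) * π A⁻¹) * (π (D * Y * D⁻¹))⁻¹ * π Y := by
          conv_lhs => rw [e]
          simp only [map_mul, map_inv]; group
      _ = π (Y⁻¹ * A⁻¹ * Y) := by rw [← h1]; simp only [map_mul, map_inv]; group
      _ = _ := by rw [h3, map_mul]
  -- a 2-subgroup containing `y, zJ, d` and a representative
  set A' : C := D * A⁻¹ * D⁻¹ with hA'
  have hA'K : (A' : G) ∈ K' := by
    rw [hA', hD]; exact ⟨(A⁻¹ : C), inv_mem hAK, rfl⟩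
  have hA2 : π A⁻¹ * π A⁻¹ = π ZK := by
    rw [← map_mul]
    congr 1
    calc A⁻¹ * A⁻¹ = (R * (Y * Y) * R⁻¹)⁻¹ := by rw [hA]; group
      _ = ZK := by rw [eY2, eZKc R, mul_inv_cancel_right, inv_eq_of_mul_eq_one_right eZK1]
  have hD2 : D * D = 1 := by rw [hD]; exact Subtype.ext hd2
  have hA'2 : π A' * π A' = π ZK := by
    have e : A' * A' = D * (A⁻¹ * A⁻¹) * D⁻¹ := by rw [hA']; group
    have hA2'' : π (A⁻¹ * A⁻¹) = π ZK := (map_mul π _ _).trans hA2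
    rw [← map_mul, e, map_mul, map_mul, hA2'', ← map_mul, ← map_mul, eZKc D, mul_inv_cancel_right]
  have hAA' : π A⁻¹ * π A' = π A' * π A⁻¹ := hcomm _ _ (inv_mem hAK) hA'K
  set W := Subgroup.closure ({π A⁻¹, π A'} : Set (↥C ⧸ pPrimeCore 2 ↥C)) with hW
  have hW1 : π A⁻¹ ∈ W := Subgroup.subset_closure (by simp)
  have hW2 : π A' ∈ W := Subgroup.subset_closure (by simp)
  have hW3 : π ZK ∈ W := hA2 ▸ mul_mem hW1 hW1
  have h41 : π A⁻¹ ^ 4 = 1 := by
    rw [show 4 = 2 + 2 from rfl, pow_add, pow_two, hA2, ← map_mul, eZK1, map_one]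
  have h42 : π A' ^ 4 = 1 := by
    rw [show 4 = 2 + 2 from rfl, pow_add, pow_two, hA'2, ← map_mul, eZK1, map_one]
  have hWp : IsPGroup 2 W := by
    haveI : IsMulCommutative W := Subgroup.isMulCommutative_closure (by
      rintro a (rfl | rfl) b (rfl | rfl) <;> first | rfl | exact hAA' | exact hAA'.symm)
    intro a
    refine ⟨2, ?_⟩
    apply Subtype.ext
    rw [SubmonoidClass.coe_pow, OneMemClass.coe_one]
    refine Subgroup.closure_induction (p := fun a _ => a ^ 2 ^ 2 = 1) ?_ (one_pow _) ?_ ?_ a.2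
    · rintro b (rfl | rfl) <;> assumption
    · intro p q hp hq h1 h2
      have hc : Commute p q := congrArg Subtype.val (mul_comm' (⟨p, hp⟩ : W) ⟨q, hq⟩)
      rw [hc.mul_pow, h1, h2, one_mul]
    · intro p _ h1; rw [inv_pow, h1, inv_one]
  have hgen : ∀ X : ↥C ⧸ pPrimeCore 2 ↥C, X * π A⁻¹ * X⁻¹ ∈ W → X * π A' * X⁻¹ ∈ W →
      X⁻¹ * π A⁻¹ * X ∈ W → X⁻¹ * π A' * X ∈ W →
      X ∈ Subgroup.normalizer (W : Set (↥C ⧸ pPrimeCore 2 ↥C)) := by
    intro X a1 a2 b1 b2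
    rw [Subgroup.mem_normalizer_iff]
    intro v
    constructor
    · intro hv
      have hle : W ≤ W.comap (MulAut.conj X).toMonoidHom := by
        rw [hW, Subgroup.closure_le]
        rintro _ (rfl | rfl) <;> assumption
      exact hle hv
    · intro hv
      have hle : W ≤ W.comap (MulAut.conj X⁻¹).toMonoidHom := by
        rw [hW, Subgroup.closure_le]
        rintro _ (rfl | rfl)
        · show X⁻¹ * π A⁻¹ * X⁻¹⁻¹ ∈ W; rwa [inv_inv]
        · show X⁻¹ * π A' * X⁻¹⁻¹ ∈ W; rwa [inv_inv]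
      have : X⁻¹ * (X * v * X⁻¹) * X⁻¹⁻¹ ∈ W := hle hv
      rwa [show X⁻¹ * (X * v * X⁻¹) * X⁻¹⁻¹ = v by group] at this
  have hZZ : π ZJ * π ZJ = 1 := by
    rw [← map_mul, CfsgLib.Involutions.mul_self_eq_one hZJo, map_one]
  have hDD : π D * π D = 1 := by rw [← map_mul, hD2, map_one]
  have dA : π D * π A⁻¹ * (π D)⁻¹ = π A' := by rw [hA']; simp only [map_mul, map_inv]
  have dA' : π D * π A' * (π D)⁻¹ = π A⁻¹ := by
    rw [← dA, show π D * (π D * π A⁻¹ * (π D)⁻¹) * (π D)⁻¹ =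
      (π D * π D) * π A⁻¹ * (π D * π D)⁻¹ by group, hDD, one_mul, inv_one, mul_one]
  have hDn : π D ∈ Subgroup.normalizer (W : Set (↥C ⧸ pPrimeCore 2 ↥C)) := by
    have hi : (π D)⁻¹ = π D := inv_eq_of_mul_eq_one_right hDD
    refine hgen _ (by rw [dA]; exact hW2) (by rw [dA']; exact hW1) ?_ ?_
    · have h := dA; rw [hi] at h ⊢; rw [h]; exact hW2
    · have h := dA'; rw [hi] at h ⊢; rw [h]; exact hW1
  have zA' : π ZJ * π A' * (π ZJ)⁻¹ = π A' * π ZK := by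
    have e : ZJ * D = D * ZJ := by rw [hZJ, hD]; exact Subtype.ext hdz.symm
    have e' : π ZJ * π D = π D * π ZJ := by rw [← map_mul, ← map_mul, e]
    rw [← dA, show π ZJ * (π D * π A⁻¹ * (π D)⁻¹) * (π ZJ)⁻¹ =
      (π ZJ * π D) * π A⁻¹ * (π ZJ * π D)⁻¹ by group, e',
      show π D * π ZJ * π A⁻¹ * (π D * π ZJ)⁻¹ =
      π D * (π ZJ * π A⁻¹ * (π ZJ)⁻¹) * (π D)⁻¹ by group, eAY]
    rw [show π D * (π A⁻¹ * π ZK) * (π D)⁻¹ = π D * π A⁻¹ * (π D)⁻¹ * (π D * π ZK * (π D)⁻¹) by group,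
      show π D * π ZK = π ZK * π D by rw [← map_mul, ← map_mul, eZKc D], mul_inv_cancel_right]
  have hZn : π ZJ ∈ Subgroup.normalizer (W : Set (↥C ⧸ pPrimeCore 2 ↥C)) := by
    have hi : (π ZJ)⁻¹ = π ZJ := inv_eq_of_mul_eq_one_right hZZ
    refine hgen _ (by rw [eAY]; exact mul_mem hW1 hW3) (by rw [zA']; exact mul_mem hW2 hW3) ?_ ?_
    · have h := eAY; rw [hi] at h ⊢; rw [h]; exact mul_mem hW1 hW3
    · have h := zA'; rw [hi] at h ⊢; rw [h]; exact mul_mem hW2 hW3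
  set S1 := Subgroup.closure ({ZJ, D} : Set C) with hS1
  have hS1n : S1.map π ≤ Subgroup.normalizer (W : Set (↥C ⧸ pPrimeCore 2 ↥C)) := by
    rw [hS1, MonoidHom.map_closure, Subgroup.closure_le]
    rintro _ ⟨v, rfl | rfl, rfl⟩
    · exact hZn
    · exact hDn
  -- `y` normalises as well
  have yA : π Y * π A⁻¹ * (π Y)⁻¹ = π A⁻¹ * π ZK := by
    have h1 : π A⁻¹ * π (D * Y * D⁻¹) = π (D * Y * D⁻¹) * π A⁻¹ :=
      hcomm A⁻¹ _ (inv_mem hAK) (by rw [hD, hY]; exact ⟨y, hy, rfl⟩)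
    have e : Y = D * Y * D⁻¹ * ZJ := by
      rw [eDY, mul_assoc, CfsgLib.Involutions.mul_self_eq_one hZJo, mul_one]
    calc π Y * π A⁻¹ * (π Y)⁻¹
        = π (D * Y * D⁻¹) * (π ZJ * π A⁻¹ * (π ZJ)⁻¹) * (π (D * Y * D⁻¹))⁻¹ := by
          conv_lhs => rw [e]
          simp only [map_mul, map_inv]; group
      _ = (π (D * Y * D⁻¹) * π A⁻¹ * (π (D * Y * D⁻¹))⁻¹) *
          (π (D * Y * D⁻¹) * π ZK * (π (D * Y * D⁻¹))⁻¹) := by rw [eAY]; group
      _ = π A⁻¹ * π ZK := by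
          rw [← h1, mul_inv_cancel_right, ← map_mul, eZKc, map_mul, mul_inv_cancel_right]
  have yA' : π Y * π A' * (π Y)⁻¹ = π A' := by
    rw [hcomm Y A' (by rw [hY]; exact hy) hA'K, mul_inv_cancel_right]
  have hYn : π Y ∈ Subgroup.normalizer (W : Set (↥C ⧸ pPrimeCore 2 ↥C)) := by
    refine hgen _ (by rw [yA]; exact mul_mem hW1 hW3) (by rw [yA']; exact hW2) ?_ ?_
    · have : (π Y)⁻¹ * π A⁻¹ * π Y = π A⁻¹ * π ZK := by
        have hc1 : π Y * π ZK = π ZK * π Y := by rw [← map_mul, ← map_mul, eZKc Y]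
        calc (π Y)⁻¹ * π A⁻¹ * π Y = (π Y)⁻¹ * (π A⁻¹ * π ZK) * (π ZK)⁻¹ * π Y := by group
          _ = (π Y)⁻¹ * (π Y * π A⁻¹ * (π Y)⁻¹) * (π ZK)⁻¹ * π Y := by rw [yA]
          _ = π A⁻¹ * ((π ZK * π Y)⁻¹ * π Y) := by group
          _ = π A⁻¹ * (π ZK)⁻¹ := by rw [← hc1]; group
          _ = π A⁻¹ * π ZK := by rw [← map_inv, inv_eq_of_mul_eq_one_right eZK1]
      rw [this]; exact mul_mem hW1 hW3
    · have : (π Y)⁻¹ * π A' * π Y = π A' := by
        rw [mul_assoc, ← hcomm Y A' (by rw [hY]; exact hy) hA'K, inv_mul_cancel_left]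
      rw [this]; exact hW2
  set S2 := Subgroup.closure ({Y, ZJ, D} : Set C) with hS2
  have hS2n : S2.map π ≤ Subgroup.normalizer (W : Set (↥C ⧸ pPrimeCore 2 ↥C)) := by
    rw [hS2, MonoidHom.map_closure, Subgroup.closure_le]
    rintro _ ⟨v, rfl | rfl | rfl, rfl⟩
    · exact hYn
    · exact hZn
    · exact hDn
  have hS2p : IsPGroup 2 S2 := by
    refine (hT.isP.comap_of_injective C.subtype C.subtype_injective).to_le ?_
    rw [hS2, Subgroup.closure_le]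
    rintro _ (rfl | rfl | rfl)
    · rw [hY]; exact hyT
    · rw [hZJ]; exact hzJT
    · rw [hD]; exact hdT
  obtain ⟨U, hUp, hU0, hUW⟩ := exists_two_group_lift hS2p hWp hS2n
  obtain ⟨B, hBU, hBA⟩ := hUW hW1
  have hYU : Y ∈ U := hU0 (Subgroup.subset_closure (by simp))
  have hZU : ZJ ∈ U := hU0 (Subgroup.subset_closure (by simp))
  have hDU : D ∈ U := hU0 (Subgroup.subset_closure (by simp))
  have hZKU : ZK ∈ U := eY2 ▸ mul_mem hYU hYU
  have hinj : ∀ p ∈ U, ∀ q ∈ U, π p = π q → p = q := by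
    intro p hp q hq h
    have h1 : p⁻¹ * q = 1 := eq_one_of_mem_core (isTwoElt_of_isPGroup hUp
      (mul_mem (inv_mem hp) hq)) ((QuotientGroup.eq).1 h)
    exact inv_mul_eq_one.1 h1
  have hBK : (B : G) ∈ K := mem_pComponent_of_twoElt hK.comp.2 (isTwoElt_of_isPGroup hUp hBU)
    ⟨A⁻¹, inv_mem hAK, hBA.symm⟩
  have hBz : ZJ * B * ZJ⁻¹ = B * ZK := hinj _ (mul_mem (mul_mem hZU hBU) (inv_mem hZU)) _
    (mul_mem hBU hZKU) (by rw [map_mul, map_mul, map_mul, hBA, map_inv π ZJ]; exact eAY)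
  have hB2 : B * B = ZK := hinj _ (mul_mem hBU hBU) _ hZKU (by rw [map_mul, hBA, hA2])
  have hBz' : zJ * (B : G) * zJ⁻¹ = (B : G) * zK := by
    have := congrArg Subtype.val hBz
    rwa [hZJ, hZK] at this
  obtain ⟨hbb, hyb, hby⟩ := props (U.map C.subtype) (hUp.map _) ⟨Y, hYU, by rw [hY]; rfl⟩
    ⟨D, hDU, by rw [hD]; rfl⟩ ⟨ZJ, hZU, by rw [hZJ]; rfl⟩ B ⟨B, hBU, rfl⟩ hBK hBz'
  have hnb : (B : G) * (d * B * d⁻¹) ∉ layOne zJ :=
    not_mem_layOne_of_twist hK hJ.inv hc hy hy4 hdz hdy hdK hd2 hwy hwz hwJ hBK hby hBz' hbb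
      (by have := congrArg Subtype.val hB2; rwa [hZK] at this) hyb hne
  apply hnb
  -- compare with `v`
  obtain ⟨E, hE⟩ : ∃ E : C, E = B * (D * B * D⁻¹) := ⟨_, rfl⟩
  have hEU : E ∈ U := hE ▸ mul_mem hBU (mul_mem (mul_mem hDU hBU) (inv_mem hDU))
  have hEv : (E : G) = (B : G) * (d * B * d⁻¹) := by rw [hE, hD]; rfl
  rw [← hEv]
  have hEz : E * ZJ = ZJ * E := by
    refine (mul_inv_eq_iff_eq_mul.1 ?_).symm
    have hb' : ZJ * (D * B * D⁻¹) * ZJ⁻¹ = D * B * D⁻¹ * ZK := by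
      have e : ZJ * D = D * ZJ := by rw [hZJ, hD]; exact Subtype.ext hdz.symm
      calc ZJ * (D * B * D⁻¹) * ZJ⁻¹ = (ZJ * D) * B * (ZJ * D)⁻¹ := by group
        _ = (D * ZJ) * B * (D * ZJ)⁻¹ := by rw [e]
        _ = D * (ZJ * B * ZJ⁻¹) * D⁻¹ := by group
        _ = D * B * (ZK * D⁻¹) := by rw [hBz]; group
        _ = _ := by rw [← eZKc D⁻¹]; group
    calc ZJ * E * ZJ⁻¹ = (ZJ * B * ZJ⁻¹) * (ZJ * (D * B * D⁻¹) * ZJ⁻¹) := by rw [hE]; group
      _ = B * (ZK * (D * B * D⁻¹) * ZK) := by rw [hBz, hb']; group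
      _ = E := by rw [← eZKc (D * B * D⁻¹), mul_assoc _ ZK ZK, eZK1, mul_one, hE]
  have hπv : π v = π B * (π D * π B * (π D)⁻¹) * π ZK := by
    have hB2' : π B⁻¹ = π B * π ZK := by
      rw [← map_mul, inv_eq_of_mul_eq_one_right (b := B * ZK) (by rw [← mul_assoc, hB2, eZK1])]
    have hvh : π v = π ((R * R') * ZJ * (R * R')⁻¹) ∨
        π v = π ZJ * π ((R * R') * ZJ * (R * R')⁻¹) * (π ZJ)⁻¹ := by
      rcases hoπ with h | h
      · refine Or.inl ?_
        rw [hv, hh2]; simp only [map_mul, map_inv, h]; group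
      · refine Or.inr ?_
        rw [hv, hh2]; simp only [map_mul, map_inv, h]; group
    have hA1 : π A = π B * π ZK := by rw [← hB2', map_inv, hBA, map_inv, inv_inv]
    have hval : π ((R * R') * ZJ * (R * R')⁻¹) = π B * (π D * π B * (π D)⁻¹) * π ZK := by
      rw [hhz, ← hBA]
      simp only [map_mul, map_inv, hA1]
      rw [show π D * (π B * π ZK) * (π D)⁻¹ = π D * π B * (π ZK * (π D)⁻¹) by group,
        show π ZK * (π D)⁻¹ = (π D)⁻¹ * π ZK by rw [← map_inv, ← map_mul, ← map_mul, eZKc]]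
      group
      rfl
    have hcom : π ZJ * (π B * (π D * π B * (π D)⁻¹) * π ZK) * (π ZJ)⁻¹ =
        π B * (π D * π B * (π D)⁻¹) * π ZK := by
      have hez : ZJ * (E * ZK) * ZJ⁻¹ = E * ZK := by
        rw [← mul_assoc ZJ E, ← hEz, mul_assoc E ZJ, eZKc ZJ, ← mul_assoc E, mul_inv_cancel_right]
      have := congrArg π hez
      simp only [map_mul, map_inv, hE] at this
      exact this
    rcases hvh with h | h
    · rw [h, hval]
    · rw [h, hval, hcom]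
  obtain ⟨V, hV⟩ : ∃ V : C, V = v * ZK := ⟨_, rfl⟩
  have hVE : π V = π E := by
    have hZK2 : π ZK * π ZK = 1 := by rw [← map_mul, eZK1, map_one]
    rw [hV, map_mul, hπv, hE, mul_assoc _ (π ZK) (π ZK), hZK2, mul_one]
    simp only [map_mul, map_inv]
  have hvo : v * v = 1 := by
    rw [hv, show h2' * ZJ * h2'⁻¹ * (h2' * ZJ * h2'⁻¹) = h2' * (ZJ * ZJ) * h2'⁻¹ by group,
      CfsgLib.Involutions.mul_self_eq_one hZJo, mul_one, mul_inv_cancel]
  have hV2 : V * V = 1 := by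
    rw [hV, show v * ZK * (v * ZK) = v * (ZK * v) * ZK by group, ← eZKc v, ← mul_assoc, hvo,
      one_mul, eZK1]
  have hVL : (V : G) ∈ layOne zJ := by
    rw [hV, hZK, Subgroup.coe_mul]; exact mul_mem hvL hzKJ
  have hE2 : E * E = 1 := by
    rw [hE, show B * (D * B * D⁻¹) * (B * (D * B * D⁻¹)) =
      B * ((D * B * D⁻¹) * B) * (D * B * D⁻¹) by group]
    have hbb' : B * (D * B * D⁻¹) = (D * B * D⁻¹) * B := by rw [hD]; exact Subtype.ext hbb
    rw [← hbb', show B * (B * (D * B * D⁻¹)) * (D * B * D⁻¹) = (B * B) * (D * (B * B) * D⁻¹) by group,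
      hB2, eZKc D, mul_inv_cancel_right, eZK1]
  by_cases hE1 : E = 1
  · rw [hE1]; exact one_mem _
  have hV1 : V ≠ 1 := by
    intro h
    refine hE1 (hinj _ hEU _ (one_mem U) ?_)
    rw [← hVE, h]
  have hEo : orderOf E = 2 := CfsgLib.Involutions.orderOf_eq_two_iff.2 ⟨hE2, hE1⟩
  have hVo : orderOf V = 2 := CfsgLib.Involutions.orderOf_eq_two_iff.2 ⟨hV2, hV1⟩
  have hodd2 : Odd (orderOf (V * E)) := by
    refine Nat.coprime_two_right.1 (Nat.Coprime.coprime_dvd_left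
      (Subgroup.orderOf_dvd_natCard (pPrimeCore 2 ↥C) ?_) (CfsgLib.Cores.card_pPrimeCore_coprime 2))
    rw [← QuotientGroup.eq_one_iff]
    show π (V * E) = 1
    rw [map_mul, hVE, ← map_mul, hE2, map_one]
  obtain ⟨p, hp, hpe⟩ := CfsgLib.Involutions.exists_conj_eq_of_odd hVo hEo hodd2
  have hle : Subgroup.closure ({V, E} : Set C) ≤
      (Subgroup.centralizer ({zJ} : Set G)).comap C.subtype := by
    rw [Subgroup.closure_le]
    rintro _ (rfl | rfl)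
    · exact layOne_le_centralizer zJ hVL
    · refine Subgroup.mem_centralizer_singleton_iff.2 ?_
      have := congrArg Subtype.val hEz
      rw [hZJ] at this
      exact this
  have hpz : (p : G) * zJ * (p : G)⁻¹ = zJ := by
    rw [Subgroup.mem_centralizer_singleton_iff.1 (show (p : G) ∈ _ from hle hp), mul_inv_cancel_right]
  have := layOne_map_conj (g := (p : G)) hVL
  rw [hpz] at this
  rw [← hpe]
  exact this

/-- Elements of order at least four of `K` centralising `zJ` normalise `J`. -/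
theorem mem_normalizer_of_orderOf {zJ zK : G} {J K : Subgroup G} (hJ : Intrinsic zJ J)
    (hK : Intrinsic zK K) {y : G} (hy : y ∈ K) (hy2 : IsTwoElt y) (h4 : 4 ≤ orderOf y)
    (hyz : y * zJ = zJ * y) : y ∈ Subgroup.normalizer (J : Set G) := by
  classical
  haveI : Fact (Nat.Prime 2) := ⟨Nat.prime_two⟩
  by_contra hn
  obtain ⟨n, hn'⟩ := hy2
  obtain ⟨k, -, hk⟩ := (Nat.dvd_prime_pow Nat.prime_two).1 (orderOf_dvd_of_pow_eq_one hn')
  have hk2 : 2 ≤ k := by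
    by_contra h
    push Not at h
    have : 2 ^ k ≤ 2 := by
      calc 2 ^ k ≤ 2 ^ 1 := Nat.pow_le_pow_right two_pos (by omega)
        _ = 2 := rfl
    omega
  have hzKy : y ^ 2 ^ (k - 1) = zK := hK.uniq _ (pow_mem hy _) (by
    obtain ⟨l, rfl⟩ : ∃ l, k = l + 1 := ⟨k - 1, by omega⟩
    rw [Nat.add_sub_cancel, orderOf_pow' y (by positivity), hk, pow_succ, Nat.gcd_mul_right_left,
      Nat.mul_div_cancel_left _ (by positivity)])
  have hc : zJ * zK = zK * zJ := by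
    rw [← hzKy]; exact ((show Commute zJ y from hyz.symm).pow_right _).eq
  -- `zK` normalises `J`
  have hzKn : zK ∈ Subgroup.normalizer (J : Set G) := by
    refine mem_normalizer_of_mem_normalizer hJ hK ?_
    by_contra h
    have hJC : zJ ∈ Subgroup.centralizer ({zK} : Set G) :=
      Subgroup.mem_centralizer_singleton_iff.2 hc
    have h1 : y * y = 1 := hK.sq_of_mem_inter (hK.comp.map_conj_of_mem hJC) (fun e => h
      (Subgroup.mem_normalizer_iff_map_conj_eq.2 e.symm)) hy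
      ⟨y, hy, by show zJ * y * zJ⁻¹ = y; rw [← hyz, mul_inv_cancel_right]⟩ ⟨n, hn'⟩
    have h2 := Nat.le_of_dvd two_pos (orderOf_dvd_of_pow_eq_one (x := y) (n := 2) (by rw [pow_two, h1]))
    omega
  have hex : ∃ i : ℕ, y ^ 2 ^ i ∈ Subgroup.normalizer (J : Set G) := ⟨k - 1, hzKy ▸ hzKn⟩
  have h0 : Nat.find hex ≠ 0 := fun h => hn (by simpa [h] using Nat.find_spec hex)
  have hle : Nat.find hex ≤ k - 1 := Nat.find_le (hzKy ▸ hzKn)
  refine false_of_not_mem_normalizer hJ hK (y := y ^ 2 ^ (Nat.find hex - 1)) (pow_mem hy _)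
    (k := k - (Nat.find hex - 1)) (by omega) ?_
    (((show Commute y zJ from hyz).pow_left _).eq) (Nat.find_min hex (by omega)) ?_
  · rw [orderOf_pow' y (by positivity), hk, Nat.gcd_eq_right (pow_dvd_pow 2 (by omega)),
      Nat.pow_div (by omega) two_pos]
  · rw [← pow_add, ← two_mul, ← pow_succ', Nat.sub_add_cancel (by omega)]
    exact Nat.find_spec hex

end CfsgLib.Signalizer
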