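import Cfsg.Agent.Lib.Signalizer.IntrinsicCore
import Cfsg.Agent.Lib.Components2.SylowFacts
import Cfsg.Agent.Lib.Balance.ConnectedFunctor

/-!
Two 2-components of centralisers of involutions, each with a single involution, with commuting
involutions: each involution normalises the other component, and so do the elements of order at
least four centralising the other involution.
-/

set_option autoImplicit false
set_option linter.style.haveILetI false
set_option linter.unusedSectionVars false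

namespace CfsgLib.Signalizer

open Cfsg

universe u

variable {G : Type u} [Group G] [Finite G]

/-- A Sylow subgroup meets a subnormal subgroup in a Sylow subgroup. -/
theorem not_dvd_relIndex_inf_of_subnormal {X : Type*} [Group X] [Finite X] {p : ℕ}
    [Fact p.Prime] (P : Sylow p X) {H : Subgroup X} (hH : H.IsSubnormal) :
    ¬ p ∣ ((P : Subgroup X) ⊓ H).relIndex H := by
  induction hH with
  | top =>
    rw [inf_top_eq, Subgroup.relIndex_top_right]
    exact P.not_dvd_index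
  | step H K h_le hK hN ih =>
    haveI := hN
    have hp : IsPGroup p (((P : Subgroup X) ⊓ K).subgroupOf K) :=
      (P.2.to_le (inf_le_left : (P : Subgroup X) ⊓ K ≤ P)).comap_of_injective K.subtype
        K.subtype_injective
    obtain ⟨Q, hQ⟩ : ∃ Q : Sylow p K, (Q : Subgroup K) = ((P : Subgroup X) ⊓ K).subgroupOf K :=
      ⟨hp.toSylow ih, hp.toSylow_coe ih⟩
    obtain ⟨D, hD⟩ := CfsgLib.Components2.exists_sylow_map_subtype_eq_inf (H.subgroupOf K) Q
    have hDi := D.not_dvd_index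
    have h1 : ((D : Subgroup ↥(H.subgroupOf K))).index =
        ((Q : Subgroup K) ⊓ H.subgroupOf K).relIndex (H.subgroupOf K) := by
      rw [← hD]
      unfold Subgroup.relIndex
      congr 1
      exact (Subgroup.comap_map_eq_self_of_injective (Subgroup.subtype_injective _) _).symm
    rw [h1, hQ, show (((P : Subgroup X) ⊓ K).subgroupOf K ⊓ H.subgroupOf K) =
      (((P : Subgroup X) ⊓ K) ⊓ H).subgroupOf K from (Subgroup.comap_inf _ _ _).symm,
      Subgroup.relIndex_subgroupOf h_le,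
      inf_assoc, inf_eq_right.2 h_le] at hDi
    simpa using hDi

/-- A 2-subgroup of the centraliser of `z` meeting every component there in a Sylow subgroup. -/
structure Good (z : G) (S : Subgroup G) : Prop where
  isP : IsPGroup 2 S
  le : S ≤ Subgroup.centralizer ({z} : Set G)
  rel : ∀ H : Subgroup G, IsComp z H → ¬ 2 ∣ (S ⊓ H).relIndex H

theorem exists_good {z : G} {T0 : Subgroup G} (hT : IsPGroup 2 T0)
    (hle : T0 ≤ Subgroup.centralizer ({z} : Set G)) : ∃ S, T0 ≤ S ∧ Good z S := by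
  haveI : Fact (Nat.Prime 2) := ⟨Nat.prime_two⟩
  set C := Subgroup.centralizer ({z} : Set G)
  have hp : IsPGroup 2 (T0.subgroupOf C) := hT.comap_of_injective C.subtype C.subtype_injective
  obtain ⟨P, hP⟩ := hp.exists_le_sylow
  refine ⟨(P : Subgroup C).map C.subtype, fun x hx => ⟨⟨x, hle hx⟩, hP hx, rfl⟩,
    ⟨P.2.map _, Subgroup.map_subtype_le _, fun H hH => ?_⟩⟩
  have h := not_dvd_relIndex_inf_of_subnormal P hH.2.1
  rwa [← Subgroup.relIndex_map_map_of_injective _ _ C.subtype_injective,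
    Subgroup.map_inf _ _ _ C.subtype_injective, Subgroup.map_subgroupOf_eq_of_le hH.1] at h

theorem Intrinsic.z_mem_good {z : G} {J S : Subgroup G} (hJ : Intrinsic z J) (hS : Good z S) :
    z ∈ S := by
  haveI : Fact (Nat.Prime 2) := ⟨Nat.prime_two⟩
  have h := hS.rel J hJ.comp
  have h2 : 2 ∣ Nat.card J :=
    hJ.inv.symm.dvd.trans (Subgroup.orderOf_dvd_natCard J hJ.mem)
  have hmul : (S ⊓ J).relIndex J * Nat.card ↥(S ⊓ J : Subgroup G) = Nat.card J := by
    rw [← Subgroup.relIndex_bot_left (S ⊓ J), mul_comm,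
      Subgroup.relIndex_mul_relIndex _ _ _ bot_le inf_le_right, Subgroup.relIndex_bot_left]
  have h3 : 2 ∣ Nat.card ↥(S ⊓ J : Subgroup G) :=
    (Nat.prime_two.dvd_mul.1 (hmul ▸ h2)).resolve_left h
  obtain ⟨i, hi⟩ := exists_prime_orderOf_dvd_card' (G := ↥(S ⊓ J : Subgroup G)) 2 h3
  rw [← hJ.uniq i i.2.2 ((Subgroup.orderOf_coe i).trans hi)]
  exact i.2.1

theorem Intrinsic.central {z : G} {J : Subgroup G} (hJ : Intrinsic z J) {j : G} (hj : j ∈ J) :
    j * z = z * j := Subgroup.mem_centralizer_singleton_iff.1 (hJ.comp.1 hj)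

theorem Intrinsic.only {z : G} {J : Subgroup G} (hJ : Intrinsic z J) :
    OnlyInvolution (⟨z, hJ.mem⟩ : J) :=
  ⟨(Subgroup.orderOf_mk z _).trans hJ.inv,
    fun t ht => Subtype.ext (hJ.uniq t t.2 ((Subgroup.orderOf_coe t).trans ht))⟩

theorem Intrinsic.perfect {z : G} {J : Subgroup G} (hJ : Intrinsic z J) : ⁅J, J⁆ = J := by
  haveI : Fact (Nat.Prime 2) := ⟨Nat.prime_two⟩
  have h := congrArg (Subgroup.map (Subgroup.centralizer ({z} : Set G)).subtype)
    (CfsgLib.LBalance.commutator_self_of_isPComponent hJ.comp.2)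
  rwa [Subgroup.map_commutator, Subgroup.map_subgroupOf_eq_of_le hJ.comp.1] at h

theorem Intrinsic.commutator_eq_top {z : G} {J : Subgroup G} (hJ : Intrinsic z J) :
    commutator J = ⊤ := by
  apply Subgroup.map_injective J.subtype_injective
  rw [commutator_def, Subgroup.map_commutator, ← MonoidHom.range_eq_map, Subgroup.range_subtype,
    hJ.perfect]

theorem Intrinsic.not_isCyclic {z : G} {J S : Subgroup G} (hJ : Intrinsic z J) (hS : Good z S) :
    ¬ IsCyclic ↥(S ⊓ J : Subgroup G) := by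
  haveI : Fact (Nat.Prime 2) := ⟨Nat.prime_two⟩
  intro hc
  have hp : IsPGroup 2 ((S ⊓ J).subgroupOf J) :=
    (hS.isP.to_le inf_le_left).comap_of_injective J.subtype J.subtype_injective
  have hev : Even (Nat.card J) :=
    even_iff_two_dvd.2 (hJ.inv.symm.dvd.trans (Subgroup.orderOf_dvd_natCard J hJ.mem))
  obtain ⟨Q, hQ⟩ : ∃ Q : Sylow 2 J, (Q : Subgroup J) = (S ⊓ J).subgroupOf J :=
    ⟨hp.toSylow (hS.rel J hJ.comp), hp.toSylow_coe (hS.rel J hJ.comp)⟩
  refine not_isCyclic_sylow hJ.commutator_eq_top hev Q ?_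
  rw [hQ]
  exact (Subgroup.subgroupOfEquivOfLe (inf_le_right : S ⊓ J ≤ J)).isCyclic.2 hc

theorem Intrinsic.only_inf {z : G} {J S : Subgroup G} (hJ : Intrinsic z J) (hS : Good z S) :
    OnlyInvolution (⟨z, hJ.z_mem_good hS, hJ.mem⟩ : ↥(S ⊓ J : Subgroup G)) :=
  ⟨(Subgroup.orderOf_mk z _).trans hJ.inv,
    fun t ht => Subtype.ext (hJ.uniq t t.2.2 ((Subgroup.orderOf_coe t).trans ht))⟩

theorem Intrinsic.exists_four {z : G} {J S : Subgroup G} (hJ : Intrinsic z J) (hS : Good z S) :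
    ∃ j ∈ S ⊓ J, orderOf j = 4 := by
  obtain ⟨j, hj⟩ := exists_orderOf_four (hS.isP.to_le inf_le_left) (hJ.only_inf hS)
    (hJ.not_isCyclic hS)
  exact ⟨j, j.2, (Subgroup.orderOf_coe j).trans hj⟩

theorem Intrinsic.exists_inv {z : G} {J S : Subgroup G} (hJ : Intrinsic z J) (hS : Good z S)
    {j : G} (hj : j ∈ S ⊓ J) (h4 : orderOf j = 4) : ∃ w ∈ S ⊓ J, w * j * w⁻¹ = j⁻¹ := by
  obtain ⟨w, hw⟩ := exists_inverting (hS.isP.to_le inf_le_left) (hJ.only_inf hS)
    (hJ.not_isCyclic hS) (x := ⟨j, hj⟩) ((Subgroup.orderOf_mk j hj).trans h4)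
  exact ⟨w, w.2, congrArg Subtype.val hw⟩

theorem Intrinsic.sq_four {z : G} {J : Subgroup G} (hJ : Intrinsic z J) {j : G} (hj : j ∈ J)
    (h4 : orderOf j = 4) : j * j = z :=
  hJ.uniq _ (mul_mem hj hj) (sq_of_orderOf_four h4)

/-- An involution of a good subgroup centralising its part in `J` centralises `J` modulo the
core. -/
theorem Intrinsic.centralisesMod_of_sylow {z : G} {J S : Subgroup G} (hJ : Intrinsic z J)
    (hS : Good z S) {a : G} (ha : orderOf a = 2) (haS : a ∈ S)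
    (haJ : a ∈ Subgroup.normalizer (J : Set G)) (hc : ∀ r ∈ S ⊓ J, a * r = r * a) :
    CentralisesMod z J a := by
  haveI : Fact (Nat.Prime 2) := ⟨Nat.prime_two⟩
  intro j hj
  by_cases haJ' : a ∈ J
  · rw [hJ.uniq a haJ' ha, ← hJ.central hj, mul_inv_cancel_right, mul_inv_cancel]
    exact one_mem _
  set R := S ⊓ J with hR
  set H' := J ⊔ Subgroup.zpowers a with hH'
  have hJH : J ≤ H' := le_sup_left
  have haH : a ∈ H' := (le_sup_right : Subgroup.zpowers a ≤ H') (Subgroup.mem_zpowers a)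
  have hH'n : H' ≤ Subgroup.normalizer (J : Set G) :=
    sup_le Subgroup.le_normalizer (Subgroup.zpowers_le.2 haJ)
  haveI : (J.subgroupOf H').Normal := (Subgroup.normal_subgroupOf_iff_le_normalizer hJH).2 hH'n
  have hT0 : IsPGroup 2 ((R ⊔ Subgroup.zpowers a).subgroupOf H') :=
    (hS.isP.to_le (sup_le inf_le_left (Subgroup.zpowers_le.2 haS))).comap_of_injective H'.subtype
      H'.subtype_injective
  obtain ⟨P, hP⟩ := hT0.exists_le_sylow
  -- `P` meets `J` in `R`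
  have hPR : (P : Subgroup H').map H'.subtype ⊓ J = R := by
    set U := (P : Subgroup H').map H'.subtype ⊓ J with hU
    have hRU : R ≤ U := le_inf (fun r hr => ⟨⟨r, hJH hr.2⟩, hP
      (show r ∈ R ⊔ Subgroup.zpowers a from (le_sup_left : R ≤ _) hr), rfl⟩) inf_le_right
    have h1 := Subgroup.relIndex_mul_relIndex R U J hRU inf_le_right
    have h2 : ¬ 2 ∣ R.relIndex U := fun h => hS.rel J hJ.comp (h1 ▸ Dvd.dvd.mul_right h _)
    have hUp : IsPGroup 2 U := (P.2.map _).to_le inf_le_left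
    obtain ⟨k, hk⟩ := (hUp.index (R.subgroupOf U))
    refine le_antisymm (Subgroup.relIndex_eq_one.1 ?_) hRU
    rcases Nat.eq_zero_or_pos k with h | h
    · rw [Subgroup.relIndex, hk, h, pow_zero]
    · exact absurd ((dvd_pow_self 2 h.ne').trans hk.symm.dvd) h2
  have key := commutator_mem_oddCore_of_centralizes_sylow (H := ↥H') (J := J.subgroupOf H')
    (a := ⟨a, haH⟩) ((Subgroup.orderOf_mk a haH).trans ha) haJ' ?_ P
    (hP (show a ∈ R ⊔ Subgroup.zpowers a from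
      (le_sup_right : Subgroup.zpowers a ≤ _) (Subgroup.mem_zpowers a))) ?_
    (z := ⟨z, hJH hJ.mem⟩) ((Subgroup.orderOf_mk z _).trans hJ.inv) ?_
    (fun t ht ht2 => Subtype.ext (hJ.uniq t ht ((Subgroup.orderOf_coe t).trans ht2))) ⟨j, hJH hj⟩
  rotate_left
  · rw [show Subgroup.zpowers (⟨a, haH⟩ : H') = (Subgroup.zpowers a).subgroupOf H' by
      apply Subgroup.map_injective H'.subtype_injective
      rw [MonoidHom.map_zpowers, Subgroup.map_subgroupOf_eq_of_le le_sup_right]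
      rfl, ← Subgroup.subgroupOf_sup hJH le_sup_right, Subgroup.subgroupOf_self]
  · intro r hr hrJ
    exact Subtype.ext (hc r (hPR ▸ Subgroup.mem_inf.2 ⟨⟨r, hr, rfl⟩, hrJ⟩))
  · intro g
    apply Subtype.ext
    show (g : G) * z = z * g
    have hz' : (g : G) * z * (g : G)⁻¹ = z := hJ.uniq _
      ((Subgroup.mem_normalizer_iff.1 (hH'n g.2) z).1 hJ.mem)
      ((CfsgLib.Involutions.orderOf_conj _ z).trans hJ.inv)
    exact mul_inv_eq_iff_eq_mul.1 hz'
  -- back to the centraliser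
  set N := (oddCore ↥H').map H'.subtype ⊓ J with hN
  have hNn : (N.subgroupOf J).Normal := by
    refine (Subgroup.normal_subgroupOf_iff_le_normalizer inf_le_right).2 fun g hg => ?_
    haveI : (oddCore ↥H').Normal := by unfold oddCore; infer_instance
    have h1 := Subgroup.le_normalizer_map H'.subtype
      (⟨⟨g, hJH hg⟩, by rw [Subgroup.normalizer_eq_top]; trivial, rfl⟩ :
        g ∈ (Subgroup.normalizer (oddCore ↥H' : Set ↥H')).map H'.subtype)
    exact CfsgLib.Balance.normalizer_inf_le _ _ ⟨h1, Subgroup.le_normalizer hg⟩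
  have hmem : a * j * a⁻¹ * j⁻¹ ∈ N :=
    Subgroup.mem_inf.2 ⟨⟨_, key, rfl⟩, mul_mem ((Subgroup.mem_normalizer_iff.1 haJ j).1 hj) (inv_mem hj)⟩
  set C := Subgroup.centralizer ({z} : Set G) with hC
  have hsub : (N.subgroupOf C).IsSubnormal :=
    Subgroup.IsSubnormal.trans (Subgroup.comap_mono inf_le_right) (Subgroup.Normal.isSubnormal
      ((Subgroup.normal_subgroupOf_iff_le_normalizer (Subgroup.comap_mono inf_le_right)).2
        ((Subgroup.comap_mono ((Subgroup.normal_subgroupOf_iff_le_normalizer inf_le_right).1 hNn)).trans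
          (Subgroup.le_normalizer_comap _)))) hJ.comp.2.1
  have hodd : (Nat.card (N.subgroupOf C)).Coprime 2 := by
    rw [Nat.card_congr (Subgroup.subgroupOfEquivOfLe (inf_le_right.trans hJ.comp.1)).toEquiv]
    refine Nat.Coprime.coprime_dvd_left ((Subgroup.card_dvd_of_le inf_le_left).trans
      (Subgroup.card_map_dvd _ _)) ?_
    exact Nat.coprime_two_right.2 CfsgLib.Cores.odd_card_oddCore
  exact coe_mem_core (x := (⟨_, hJ.comp.1 hmem.2⟩ : C))
    (CfsgLib.Cores.le_pPrimeCore_of_subnormal hsub hodd hmem)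

/-- An involution not centralising `J` multiplies some element of order four by `z`. -/
theorem Intrinsic.exists_twisted {z : G} {J S : Subgroup G} (hJ : Intrinsic z J) (hS : Good z S)
    {a : G} (ha : orderOf a = 2) (haS : a ∈ S) (haJ : a ∈ Subgroup.normalizer (J : Set G))
    (hne : ¬ CentralisesMod z J a) : ∃ w ∈ S ⊓ J, orderOf w = 4 ∧ a * w * a⁻¹ = w * z := by
  have ha1 := CfsgLib.Involutions.mul_self_eq_one ha
  have hn : ∀ r, r ∈ S ⊓ J → a * r * a⁻¹ ∈ S ⊓ J := fun r hr =>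
    Subgroup.mem_inf.2 ⟨mul_mem (mul_mem haS hr.1) (inv_mem haS), (Subgroup.mem_normalizer_iff.1 haJ r).1 hr.2⟩
  have hinv : ∀ r : G, a * (a * r * a⁻¹) * a⁻¹ = r := fun r => by
    rw [show a * (a * r * a⁻¹) * a⁻¹ = (a * a) * r * (a * a)⁻¹ by group, ha1, one_mul, inv_one, mul_one]
  let α : MulAut ↥(S ⊓ J : Subgroup G) :=
    { toFun := fun r => ⟨a * r * a⁻¹, hn r r.2⟩
      invFun := fun r => ⟨a * r * a⁻¹, hn r r.2⟩
      left_inv := fun r => Subtype.ext (hinv r)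
      right_inv := fun r => Subtype.ext (hinv r)
      map_mul' := fun r s => Subtype.ext (by
        show a * ((r : G) * s) * a⁻¹ = a * r * a⁻¹ * (a * s * a⁻¹); group) }
  obtain ⟨r, hr, hrne⟩ : ∃ r ∈ S ⊓ J, a * r ≠ r * a := by
    by_contra h
    push Not at h
    exact hne (hJ.centralisesMod_of_sylow hS ha haS haJ h)
  obtain ⟨w, hw4, hw⟩ := exists_twisted_four (hS.isP.to_le inf_le_left) (hJ.only_inf hS)
    (hJ.not_isCyclic hS) α (fun g => Subtype.ext (hinv g)) (g0 := ⟨r, hr⟩) fun h =>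
      hrne (mul_inv_eq_iff_eq_mul.1 (congrArg Subtype.val h))
  exact ⟨w, w.2, (Subgroup.orderOf_coe w).trans hw4, congrArg Subtype.val hw⟩

theorem map_conj_core (z g : G) {x : G} (hx : x ∈ centralizerPPrimeCore 2 z) :
    g * x * g⁻¹ ∈ centralizerPPrimeCore 2 (g * z * g⁻¹) := by
  have h := CfsgLib.Balance.map_centralizerPPrimeCore (p := 2) (MulAut.conj g) z
  exact h.le ⟨x, hx, rfl⟩

/-- If `zJ` normalises `K` then `zK` normalises `J`. -/
theorem mem_normalizer_of_mem_normalizer {zJ zK : G} {J K : Subgroup G} (hJ : Intrinsic zJ J)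
    (hK : Intrinsic zK K) (h : zJ ∈ Subgroup.normalizer (K : Set G)) :
    zK ∈ Subgroup.normalizer (J : Set G) := by
  haveI : Fact (Nat.Prime 2) := ⟨Nat.prime_two⟩
  by_contra hn
  have hzJ1 := CfsgLib.Involutions.mul_self_eq_one hJ.inv
  have hzK1 := CfsgLib.Involutions.mul_self_eq_one hK.inv
  have hc : zJ * zK = zK * zJ := mul_inv_eq_iff_eq_mul.1
    (hK.uniq _ ((Subgroup.mem_normalizer_iff.1 h zK).1 hK.mem)
      ((CfsgLib.Involutions.orderOf_conj zJ zK).trans hK.inv))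
  have hKC : zK ∈ Subgroup.centralizer ({zJ} : Set G) :=
    Subgroup.mem_centralizer_singleton_iff.2 hc.symm
  have hJC : zJ ∈ Subgroup.centralizer ({zK} : Set G) :=
    Subgroup.mem_centralizer_singleton_iff.2 hc
  have hnl : zK ∉ layTwo zK zJ := fun hm => hn (hJ.comp.layOne_le_normalizer
    (layTwo_le_layOne (isTwoElt_of_sq hzK1) hc (layTwo_comm zK zJ ▸ hm)))
  have hne : J.map (MulAut.conj zK).toMonoidHom ≠ J := fun e =>
    hn (Subgroup.mem_normalizer_iff_map_conj_eq.2 e)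
  have hnK : ¬ CentralisesMod zK K zJ := fun hcm => hnl
    (mem_layTwo_of_centralised hK.comp hJC (isTwoElt_of_sq hzJ1) hcm (isTwoElt_of_sq hzK1) hK.mem
      hc.symm)
  obtain ⟨S, hS0, hS⟩ := exists_good (IsTwoElt.isPGroup (isTwoElt_of_sq hzK1))
    (Subgroup.zpowers_le.2 hKC)
  have hzKS : zK ∈ S := hS0 (Subgroup.mem_zpowers _)
  obtain ⟨j, hjR, hj4⟩ := hJ.exists_four hS
  obtain ⟨w, hwR, hwj⟩ := hJ.exists_inv hS hjR hj4
  set J' := J.map (MulAut.conj zK).toMonoidHom with hJ'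
  have hJ'c : IsComp zJ J' := hJ.comp.map_conj_of_mem hKC
  obtain ⟨j', hj'⟩ : ∃ j', j' = zK * j * zK⁻¹ := ⟨_, rfl⟩
  have hj'S : j' ∈ S := hj' ▸ mul_mem (mul_mem hzKS hjR.1) (inv_mem hzKS)
  have hj'J : j' ∈ J' := hj' ▸ ⟨j, hjR.2, rfl⟩
  have hjj' : j * j' = j' * j := commute_of_mem_core hS.isP hjR.1 hj'S
    (hJ.comp.commutator_mem hJ'c (Ne.symm hne) hjR.2 hj'J)
  have hwj' : w * j' = j' * w := commute_of_mem_core hS.isP hwR.1 hj'S
    (hJ.comp.commutator_mem hJ'c (Ne.symm hne) hwR.2 hj'J)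
  have hj2 := hJ.sq_four hjR.2 hj4
  have hzKi : zK⁻¹ = zK := CfsgLib.Involutions.inv_eq_self hK.inv
  have hj'2 : j' * j' = zJ := by
    rw [hj', show zK * j * zK⁻¹ * (zK * j * zK⁻¹) = zK * (j * j) * zK⁻¹ by group, hj2, ← hc,
      mul_inv_cancel_right]
  obtain ⟨d, hd⟩ : ∃ d, d = j * j' := ⟨_, rfl⟩
  have hd2 : d * d = 1 := by
    rw [hd, show j * j' * (j * j') = j * (j' * j) * j' by group, ← hjj',
      show j * (j * j') * j' = (j * j) * (j' * j') by group, hj2, hj'2, hzJ1]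
  have hjz : j * zJ = zJ * j := hJ.central hjR.2
  have hji : j⁻¹ = j * zJ := inv_eq_of_mul_eq_one_right (by rw [← mul_assoc, hj2, hzJ1])
  have hdJ : d * zJ = zJ * d := by
    have : j' * zJ = zJ * j' := Subgroup.mem_centralizer_singleton_iff.1 (hJ'c.1 hj'J)
    rw [hd, mul_assoc, this, ← mul_assoc, hjz, mul_assoc]
  have hdK : zK * d * zK⁻¹ = d := by
    calc zK * d * zK⁻¹ = (zK * j * zK⁻¹) * ((zK * zK) * j * (zK * zK)⁻¹) := by rw [hd, hj']; group
      _ = j' * j := by rw [hzK1, one_mul, inv_one, mul_one, ← hj']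
      _ = d := by rw [hd]; exact hjj'.symm
  have hdK' : d * zK = zK * d := (mul_inv_eq_iff_eq_mul.1 hdK).symm
  have hdL : d ∈ layTwo zJ zK := by
    rw [hd, hj']
    exact mem_layTwo_of_diag hJ.comp hKC hzK1 hne (isTwoElt_of_isPGroup hS.isP hjR.1) hjR.2
      (by rw [← hj']; exact hjj')
  have hdc : CentralisesMod zK K d :=
    centralisesMod_of_layTwo hK hJC hJ.inv h (Or.inl hnl) (layTwo_comm zJ zK ▸ hdL)
  -- a good subgroup for `zK`
  obtain ⟨T, hT0, hT⟩ := exists_good (hS.isP.to_le (inf_le_left :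
    S ⊓ Subgroup.centralizer ({zK} : Set G) ≤ S)) inf_le_right
  have hzJT : zJ ∈ T := hT0 ⟨hJ.z_mem_good hS, hJC⟩
  have hdT : d ∈ T := hT0 ⟨hd ▸ mul_mem hjR.1 hj'S, Subgroup.mem_centralizer_singleton_iff.2 hdK'⟩
  obtain ⟨m, hmR, hm4, hm⟩ := hK.exists_twisted hT hJ.inv hzJT h hnK
  have hdm : d * m = m * d := commute_of_mem_core hT.isP hdT hmR.1 (hdc m hmR.2)
  -- the three transvections
  have hzJi : zJ⁻¹ = zJ := CfsgLib.Involutions.inv_eq_self hJ.inv
  have ej : j * zK * j⁻¹ = zK * (zJ * d) := by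
    calc j * zK * j⁻¹ = zK * ((zK * j * zK⁻¹) * j⁻¹) := by
          rw [hzKi, show zK * (zK * j * zK * j⁻¹) = (zK * zK) * (j * zK * j⁻¹) by group, hzK1, one_mul]
      _ = zK * (j' * (j * zJ)) := by rw [← hj', hji]
      _ = zK * (d * zJ) := by rw [← mul_assoc j', ← hjj', ← hd]
      _ = _ := by rw [hdJ]
  have ejd : j * d * j⁻¹ = d := by
    rw [hd, ← mul_assoc, mul_assoc (j * j), show j' * j⁻¹ = j⁻¹ * j' from
      (show Commute j j' from hjj').inv_left.eq.symm, ← mul_assoc, mul_inv_cancel_right]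
  have ejz : j * zJ * j⁻¹ = zJ := by rw [hjz, mul_inv_cancel_right]
  have em : m * zJ * m⁻¹ = zJ * zK := by
    calc m * zJ * m⁻¹ = zJ * (zJ * m * zJ⁻¹) * (zJ * zJ) * m⁻¹ := by
          rw [show zJ * (zJ * m * zJ⁻¹) * (zJ * zJ) * m⁻¹ = (zJ * zJ) * m * zJ * m⁻¹ by group,
            hzJ1, one_mul]
      _ = zJ * (m * zK) * m⁻¹ := by rw [hm, hzJ1, mul_one]
      _ = zJ * zK := by rw [hK.central hmR.2, mul_assoc, mul_assoc zK, mul_inv_cancel, mul_one]
  have emd : m * d * m⁻¹ = d := by rw [← hdm, mul_inv_cancel_right]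
  have emK : m * zK * m⁻¹ = zK := by rw [hK.central hmR.2, mul_inv_cancel_right]
  have ewz : w * zJ * w⁻¹ = zJ := by rw [hJ.central hwR.2, mul_inv_cancel_right]
  have ewd : w * d * w⁻¹ = zJ * d := by
    calc w * d * w⁻¹ = (w * j * w⁻¹) * ((w * j') * w⁻¹) := by rw [hd]; group
      _ = j⁻¹ * j' := by rw [hwj, hwj', mul_inv_cancel_right]
      _ = zJ * d := by rw [hji, hjz, hd, mul_assoc]
  obtain ⟨ρ, hρ⟩ : ∃ ρ, ρ = w * m * j := ⟨_, rfl⟩
  have hconj : ∀ x : G, ρ * x * ρ⁻¹ = w * (m * (j * x * j⁻¹) * m⁻¹) * w⁻¹ := fun x => by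
    rw [hρ]; group
  have hmulc : ∀ g x y : G, g * (x * y) * g⁻¹ = (g * x * g⁻¹) * (g * y * g⁻¹) := fun g x y => by
    group
  have hρK : ρ * zK * ρ⁻¹ = d := by
    rw [hconj, ej, hmulc m, hmulc m, emK, em, emd,
      show zK * (zJ * zK * d) = zJ * d by
        rw [← mul_assoc, ← mul_assoc, ← hc, mul_assoc zJ, hzK1, mul_one],
      hmulc w, ewz, ewd, ← mul_assoc, hzJ1, one_mul]
  have hρJ : ρ * (zK * d) * ρ⁻¹ = zJ := by
    have e1 : j * (zK * d) * j⁻¹ = zK * zJ := by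
      rw [hmulc j, ej, ejd, mul_assoc zK, mul_assoc zJ, hd2, mul_one]
    have e2 : m * (zK * zJ) * m⁻¹ = zJ := by
      rw [hmulc m, emK, em, hc, ← mul_assoc, hzK1, one_mul]
    rw [hconj, e1, e2, ewz]
  have hK2 : Intrinsic d (K.map (MulAut.conj ρ).toMonoidHom) := hρK ▸ hK.map_conj ρ
  have hK2c : CentralisesMod d (K.map (MulAut.conj ρ).toMonoidHom) zJ := by
    rintro _ ⟨k, hk, rfl⟩
    show zJ * (ρ * k * ρ⁻¹) * zJ⁻¹ * (ρ * k * ρ⁻¹)⁻¹ ∈ centralizerPPrimeCore 2 d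
    rw [← hρJ, show ρ * (zK * d) * ρ⁻¹ * (ρ * k * ρ⁻¹) * (ρ * (zK * d) * ρ⁻¹)⁻¹ * (ρ * k * ρ⁻¹)⁻¹ =
      ρ * (zK * d * k * (zK * d)⁻¹ * k⁻¹) * ρ⁻¹ by group]
    suffices hs : zK * d * k * (zK * d)⁻¹ * k⁻¹ ∈ centralizerPPrimeCore 2 zK by
      have := map_conj_core zK ρ hs
      rwa [hρK] at this
    have hdk := hdc k hk
    have hcc := Subgroup.mem_centralizer_singleton_iff.1
      (CfsgLib.Balance.centralizerPPrimeCore_le_centralizer 2 zK hdk)
    rw [show zK * d * k * (zK * d)⁻¹ * k⁻¹ =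
      zK * ((d * k * d⁻¹ * k⁻¹) * (k * zK⁻¹) * k⁻¹) by group, hzKi, hK.central hk]
    generalize d * k * d⁻¹ * k⁻¹ = c at hdk hcc ⊢
    rw [mul_assoc c, mul_inv_cancel_right, hcc, ← mul_assoc, hzK1, one_mul]
    exact hdk
  have hdd : orderOf d = 2 := hK2.inv
  have hdL2 : d ∈ layTwo zJ d := layTwo_comm d zJ ▸ mem_layTwo_of_centralised hK2.comp
    (Subgroup.mem_centralizer_singleton_iff.2 hdJ.symm) (isTwoElt_of_sq hzJ1) hK2c
    (isTwoElt_of_sq hd2) hK2.mem hdJ
  have hdone : d ∈ layOne zJ := layTwo_le_layOne (isTwoElt_of_sq hzK1) hc hdL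
  have hdJn : d ∈ Subgroup.normalizer (J : Set G) := hJ.comp.layOne_le_normalizer hdone
  have hdnc : ¬ CentralisesMod zJ J d := fun hcm => by
    have h1 := commute_of_mem_core hS.isP (hd ▸ mul_mem hjR.1 hj'S) hwR.1 (hcm w hwR.2)
    rw [← h1, mul_inv_cancel_right] at ewd
    exact CfsgLib.Involutions.ne_one hJ.inv (mul_eq_right.1 ewd.symm)
  exact hdnc (centralisesMod_of_layTwo hJ (Subgroup.mem_centralizer_singleton_iff.2 hdJ) hdd hdJn
    (Or.inr ⟨hdone, hdnc⟩) hdL2)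

/-- The configuration of the final contradiction: an involution `c` built from `m` does not lie in
the 2-layer of the centraliser of `zJ`. -/
theorem not_mem_layOne_of_twist {zJ zK y d w m : G} {K : Subgroup G} (hK : Intrinsic zK K)
    (hzJ : orderOf zJ = 2) (hc : zJ * zK = zK * zJ)
    (hy : y ∈ K) (hy4 : orderOf y = 4)
    (hdz : d * zJ = zJ * d) (hdy : d * y * d⁻¹ = y * zJ) (hdK : d * zK = zK * d) (hd2 : d * d = 1)
    (hwy : w⁻¹ * y * w = y * d) (hwz : w * zK * w⁻¹ = zK * zJ) (hwJ : w * zJ = zJ * w)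
    (hm : m ∈ K) (hmy : m * y * m⁻¹ = y * zK) (hzm : zJ * m * zJ⁻¹ = m * zK)
    (hmm : m * (d * m * d⁻¹) = (d * m * d⁻¹) * m) (hm2 : m * m = zK)
    (hym : y * (d * m * d⁻¹) = (d * m * d⁻¹) * y) (hne : zJ ≠ zK) :
    m * (d * m * d⁻¹) ∉ layOne zJ := by
  set m' := d * m * d⁻¹ with hm'
  set c := m * m' with hcdef
  have hzJ1 := CfsgLib.Involutions.mul_self_eq_one hzJ
  have hzK1 := CfsgLib.Involutions.mul_self_eq_one hK.inv
  have hmK : m * zK = zK * m := hK.central hm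
  have hm'2 : m' * m' = zK := by
    rw [hm', show d * m * d⁻¹ * (d * m * d⁻¹) = d * (m * m) * d⁻¹ by group, hm2, hdK,
      mul_inv_cancel_right]
  have hc2 : c * c = 1 := by
    rw [hcdef, show m * m' * (m * m') = m * (m' * m) * m' by group, ← hmm,
      show m * (m * m') * m' = (m * m) * (m' * m') by group, hm2, hm'2, hzK1]
  have hcy : c * y * c⁻¹ = y * zK := by
    rw [hcdef, show m * m' * y * (m * m')⁻¹ = m * (m' * y * m'⁻¹) * m⁻¹ by group, ← hym,
      mul_inv_cancel_right, hmy]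
  have hdc : d * c * d⁻¹ = c := by
    rw [hcdef, show d * (m * m') * d⁻¹ = (d * m * d⁻¹) * ((d * d) * m * (d * d)⁻¹) by
      rw [hm']; group, hd2, one_mul, inv_one, mul_one, ← hm']
    exact hmm.symm
  have hcd : c * d * c⁻¹ = d := by
    rw [show c * d = d * c from ((mul_inv_eq_iff_eq_mul.1 hdc)).symm, mul_inv_cancel_right]
  set g := w * m with hg
  have hgJ : g * zJ * g⁻¹ = zK := by
    have e1 : m * zJ * m⁻¹ = zJ * zK := by
      calc m * zJ * m⁻¹ = zJ * (zJ * m * zJ⁻¹) * (zJ * zJ) * m⁻¹ := by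
            rw [show zJ * (zJ * m * zJ⁻¹) * (zJ * zJ) * m⁻¹ = (zJ * zJ) * m * zJ * m⁻¹ by group,
              hzJ1, one_mul]
        _ = zJ * (m * zK) * m⁻¹ := by rw [hzm, hzJ1, mul_one]
        _ = zJ * zK := by rw [hmK, mul_assoc, mul_assoc zK, mul_inv_cancel, mul_one]
    calc g * zJ * g⁻¹ = w * (m * zJ * m⁻¹) * w⁻¹ := by rw [hg]; group
      _ = (w * zJ * w⁻¹) * (w * zK * w⁻¹) := by rw [e1]; group
      _ = zJ * (zK * zJ) := by rw [hwJ, mul_inv_cancel_right, hwz]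
      _ = zK := by rw [← hc, ← mul_assoc, hzJ1, one_mul]
  have hgK : g * zK * g⁻¹ = zK * zJ := by
    calc g * zK * g⁻¹ = w * (m * zK * m⁻¹) * w⁻¹ := by rw [hg]; group
      _ = zK * zJ := by rw [hmK, mul_inv_cancel_right, hwz]
  have hgi : g⁻¹ * (zK * zJ) * g = zK := by rw [← hgK]; group
  have hJ3 : Intrinsic zJ (K.map (MulAut.conj g⁻¹).toMonoidHom) := by
    have h := hK.map_conj g⁻¹
    rwa [show g⁻¹ * zK * g⁻¹⁻¹ = zJ by rw [← hgJ]; group] at h
  set j := g⁻¹ * y * g with hj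
  have hjmem : j ∈ K.map (MulAut.conj g⁻¹).toMonoidHom := ⟨y, hy, by
    show g⁻¹ * y * g⁻¹⁻¹ = j; rw [inv_inv]⟩
  -- conjugation of `j` by `c`
  have hcm : m * c * m⁻¹ = c := by
    refine mul_inv_eq_iff_eq_mul.2 ?_
    rw [hcdef, mul_assoc m m' m, ← hmm]
  have hcj : c * j * c⁻¹ = zK * j := by
    have e : g * (c * j * c⁻¹) * g⁻¹ = (g * zK * g⁻¹) * y := by
      calc g * (c * j * c⁻¹) * g⁻¹ = (g * c * g⁻¹) * y * (g * c * g⁻¹)⁻¹ := by rw [hj]; group
        _ = (w * c * w⁻¹) * y * (w * c * w⁻¹)⁻¹ := by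
            rw [show g * c * g⁻¹ = w * (m * c * m⁻¹) * w⁻¹ by rw [hg]; group, hcm]
        _ = w * ((c * y * c⁻¹) * (c * (y⁻¹ * (w⁻¹ * y * w)) * c⁻¹)) * w⁻¹ := by group
        _ = w * (y * zK * d) * w⁻¹ := by rw [hwy, inv_mul_cancel_left, hcd, hcy]
        _ = w * (zK * (w⁻¹ * y * w)) * w⁻¹ := by rw [hwy, hK.central hy, mul_assoc zK]
        _ = (w * zK * w⁻¹) * y := by group
        _ = _ := by rw [hwz, hgK]
    calc c * j * c⁻¹ = g⁻¹ * (g * (c * j * c⁻¹) * g⁻¹) * g := by group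
      _ = g⁻¹ * ((g * zK * g⁻¹) * y) * g := by rw [e]
      _ = zK * j := by rw [hj]; group
  intro hL
  have hmem := (Subgroup.mem_normalizer_iff.1 (hJ3.comp.layOne_le_normalizer hL) j).1 hjmem
  rw [hcj] at hmem
  exact hne (hJ3.uniq zK ((Subgroup.mul_mem_cancel_right _ hjmem).1 hmem) hK.inv).symm

end CfsgLib.Signalizer
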