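import Cfsg.Prelude.Def_Balance
import Cfsg.Agent.Lib.Signalizer.ComponentBalance
import Cfsg.Agent.Lib.Signalizer.Generation
import Cfsg.Agent.Lib.ThompsonJ.ElemAbelian

/-!
A component of maximal order of the centraliser of an involution stays a component of the
centraliser of every involution of a largest elementary abelian subgroup centralising it.
-/

set_option autoImplicit false
set_option linter.style.haveILetI false
set_option linter.unusedSectionVars false

namespace CfsgLib.Signalizer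

open Cfsg

universe u

variable {G : Type u} [Group G] [Finite G]

theorem even_card_of_rank {K : Subgroup G} (hrk : ¬ PRankLE 2 1 ↥K) : 2 ∣ Nat.card ↥K := by
  unfold PRankLE at hrk
  push Not at hrk
  obtain ⟨A, -, hA2, hA⟩ := hrk
  obtain ⟨n, hn⟩ := IsPGroup.iff_card.mp (fun x : A => ⟨1, Subtype.ext (by simpa using hA2 x x.2)⟩ :
    IsPGroup 2 ↥A)
  refine (dvd_pow_self 2 ?_).trans ((hn ▸ Subgroup.card_subgroup_dvd_card A) : 2 ^ n ∣ Nat.card ↥K)
  rintro rfl
  rw [hn] at hA
  norm_num at hA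

/-- The heart of the argument, given L-balance. -/
theorem component_centralizer_of_maximal (hZ : CfsgLib.Balance.ZStarTheorem.{u})
    (hO : oddCore G = ⊥) (hBP : HasBProperty G) (a : G) (ha : orderOf a = 2) (K : Subgroup G)
    (hKa : K ≤ Subgroup.centralizer ({a} : Set G))
    (hK : IsComponent (K.subgroupOf (Subgroup.centralizer ({a} : Set G))))
    (hmax : ∀ y : G, orderOf y = 2 → ∀ K' : Subgroup G, K' ≤ Subgroup.centralizer ({y} : Set G) →
      IsComponent (K'.subgroupOf (Subgroup.centralizer ({y} : Set G))) →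
      Nat.card ↥K' ≤ Nat.card ↥K ∧ (Nat.card ↥K' = Nat.card ↥K → ∀ k : ℕ,
        PRankLE 2 k ↥(Subgroup.centralizer ({a} : Set G) ⊓ Subgroup.centralizer (K : Set G)) →
        PRankLE 2 k ↥(Subgroup.centralizer ({y} : Set G) ⊓ Subgroup.centralizer (K' : Set G))))
    (hrk : ¬ PRankLE 2 1 ↥K) (B : Subgroup G)
    (hBle : B ≤ Subgroup.centralizer ({a} : Set G) ⊓ Subgroup.centralizer (K : Set G))
    (hBel : IsElementaryAbelian 2 B)
    (hBmax : ∀ B' : Subgroup G,
      B' ≤ Subgroup.centralizer ({a} : Set G) ⊓ Subgroup.centralizer (K : Set G) →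
      IsElementaryAbelian 2 B' → Nat.card ↥B' ≤ Nat.card ↥B)
    (b : G) (hb : b ∈ B) (hb1 : b ≠ 1) :
    K ≤ Subgroup.centralizer ({b} : Set G) ∧
      IsComponent (K.subgroupOf (Subgroup.centralizer ({b} : Set G))) := by
  haveI : Fact (Nat.Prime 2) := ⟨Nat.prime_two⟩
  set X := Subgroup.centralizer ({b} : Set G) with hX
  have hKX : K ≤ X := fun k hk => Subgroup.mem_centralizer_singleton_iff.2
    (Subgroup.mem_centralizer_iff.1 (Subgroup.mem_inf.1 (hBle hb)).2 k hk)
  have haa : a * a = 1 := by rw [← pow_two, ← ha]; exact pow_orderOf_eq_one a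
  have haB : a ∈ B := by
    have hz : IsElementaryAbelian 2 (Subgroup.zpowers a) :=
      CfsgLib.ThompsonJ.isElementaryAbelian_zpowers (by rw [pow_two]; exact haa)
    have hBa : B ≤ Subgroup.centralizer (Subgroup.zpowers a : Set G) := by
      rw [Subgroup.zpowers_eq_closure, Subgroup.centralizer_closure]
      exact fun x hx => (Subgroup.mem_inf.1 (hBle hx)).1
    have hsup := CfsgLib.ThompsonJ.isElementaryAbelian_sup hBel hz hBa
    have hle : Subgroup.zpowers a ≤
        Subgroup.centralizer ({a} : Set G) ⊓ Subgroup.centralizer (K : Set G) :=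
      le_inf (Subgroup.zpowers_le.2 (Subgroup.mem_centralizer_singleton_iff.2 rfl))
        (Subgroup.zpowers_le.2 (Subgroup.mem_centralizer_iff.2 fun k hk =>
          Subgroup.mem_centralizer_singleton_iff.1 (hKa hk)))
    have heq := Subgroup.eq_of_le_of_card_ge (le_sup_left : B ≤ B ⊔ Subgroup.zpowers a)
      (hBmax _ (sup_le hBle hle) hsup)
    exact heq.ge (Subgroup.mem_sup_right (Subgroup.mem_zpowers a))
  have hbo : orderOf b = 2 := orderOf_eq_of_mem hBel hb hb1
  have hBX : B ≤ X := fun x hx => Subgroup.mem_centralizer_singleton_iff.2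
    (mul_comm_of_isElementaryAbelian hBel hx hb)
  refine ⟨hKX, ?_⟩
  -- everything inside `X`
  set a' : ↥X := ⟨a, hBX haB⟩ with ha'
  have haa' : a' * a' = 1 := Subtype.ext haa
  set K' := K.subgroupOf X with hK'
  set Ca := Subgroup.centralizer ({a'} : Set ↥X) with hCa
  have hK'a : K' ≤ Ca := fun k hk => Subgroup.mem_centralizer_singleton_iff.2
    (Subtype.ext (Subgroup.mem_centralizer_singleton_iff.1 (hKa hk)))
  have hKq : IsQuasisimple ↥K := (CfsgLib.Cores.isQuasisimple_subgroupOf hKa).1 hK.2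
  have hK'q : IsQuasisimple ↥K' := (CfsgLib.Cores.isQuasisimple_subgroupOf hKX).2 hKq
  have hK'c : IsComponent (K'.subgroupOf Ca) := by
    refine ⟨?_, (CfsgLib.Cores.isQuasisimple_subgroupOf hK'a).2 hK'q⟩
    let φ : ↥Ca →* ↥(Subgroup.centralizer ({a} : Set G)) :=
      (X.subtype.comp Ca.subtype).codRestrict _ fun y => Subgroup.mem_centralizer_singleton_iff.2
        (congrArg Subtype.val (Subgroup.mem_centralizer_singleton_iff.1 y.2))
    exact hK.1.comap φ
  have hK'card : Nat.card ↥K' = Nat.card ↥K :=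
    Nat.card_congr (Subgroup.subgroupOfEquivOfLe hKX).toEquiv
  have hK'E : K' ≤ layer ↥X := by
    have hp : IsPComponent 2 (K'.subgroupOf Ca) := by
      refine isPComponent_of_isComponent hK'c fun h => ?_
      rw [Nat.card_congr (Subgroup.subgroupOfEquivOfLe hK'a).toEquiv, hK'card] at h
      exact (Nat.Prime.coprime_iff_not_dvd Nat.prime_two).1 h.symm (even_card_of_rank hrk)
    have hT : IsPGroup 2 ↥(Subgroup.zpowers a') := by
      obtain ⟨i, -, hi⟩ := (Nat.dvd_prime_pow Nat.prime_two).mp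
        (orderOf_dvd_of_pow_eq_one (show a' ^ 2 ^ 1 = 1 by rw [pow_one, pow_two]; exact haa'))
      exact IsPGroup.of_card (n := i) (by rw [Nat.card_zpowers, hi])
    have hL := CfsgLib.Balance.pLayer_centralizer_le_two hZ hT
    rw [show Subgroup.centralizer ((Subgroup.zpowers a' : Subgroup ↥X) : Set ↥X) = Ca by
      rw [Subgroup.zpowers_eq_closure, Subgroup.centralizer_closure]] at hL
    have h1 : K' ≤ pLayer 2 ↥X := by
      refine le_trans ?_ hL
      rw [← Subgroup.map_subgroupOf_eq_of_le hK'a]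
      exact Subgroup.map_mono (CfsgLib.LBalance.le_pLayer hp)
    refine h1.trans (pLayer_le_layer ?_)
    have h2 := hBP b hbo
    rw [hO, le_bot_iff, Subgroup.map_eq_bot_iff_of_injective _ X.subtype_injective] at h2
    exact h2
  obtain ⟨H, hH, hcase⟩ := component_of_centralizer_in_layer haa' hK'a hK'c hK'E
  set H₁ := H.map X.subtype with hH₁
  have hH₁c : IsComponent (H₁.subgroupOf X) := by
    rw [hH₁, Subgroup.subgroupOf, Subgroup.comap_map_eq_self_of_injective X.subtype_injective]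
    exact hH
  obtain ⟨hle, hrank⟩ := hmax b hbo H₁ (Subgroup.map_subtype_le _) hH₁c
  have hH₁card : Nat.card ↥H₁ = Nat.card ↥H := Subgroup.card_map_of_injective X.subtype_injective
  rcases hcase with ⟨-, hKH⟩ | ⟨hne, hin, hout⟩
  · rw [show K' = H from Subgroup.eq_of_le_of_card_ge hKH (by rw [hK'card, ← hH₁card]; exact hle)]
    exact hH
  exfalso
  set H' := H.map (MulAut.conj a').toMonoidHom with hH'
  have hH'c : IsComponent H' := CfsgLib.Cores.isComponent_map_equiv hH (MulAut.conj a')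
  have hmap : ∀ h ∈ H, a' * h * a'⁻¹ ∈ H' := fun h hh => ⟨h, hh, rfl⟩
  have hmap' : ∀ h ∈ H', a' * h * a'⁻¹ ∈ H := by
    rintro _ ⟨h, hh, rfl⟩
    show a' * (a' * h * a'⁻¹) * a'⁻¹ ∈ H
    rwa [show a' * (a' * h * a'⁻¹) * a'⁻¹ = (a' * a') * h * (a' * a')⁻¹ by group, haa', one_mul,
      inv_one, mul_one]
  have hHH' : H ≤ Subgroup.centralizer (H' : Set ↥X) :=
    CfsgLib.Cores.le_centralizer_of_isComponent_ne hH hH'c (Ne.symm hne)
  have hH'H : H' ≤ Subgroup.centralizer (H : Set ↥X) :=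
    CfsgLib.Cores.le_centralizer_of_isComponent_ne hH'c hH hne
  let δ : ↥H →* ↥K' := MonoidHom.mk' (fun h => ⟨(h : ↥X) * (a' * h * a'⁻¹), hin h h.2⟩)
    fun h₁ h₂ => Subtype.ext <| by
      show ((h₁ : ↥X) * h₂) * (a' * ((h₁ : ↥X) * h₂) * a'⁻¹) =
        (h₁ : ↥X) * (a' * h₁ * a'⁻¹) * ((h₂ : ↥X) * (a' * h₂ * a'⁻¹))
      calc ((h₁ : ↥X) * h₂) * (a' * ((h₁ : ↥X) * h₂) * a'⁻¹)
          = h₁ * ((h₂ : ↥X) * (a' * h₁ * a'⁻¹)) * (a' * h₂ * a'⁻¹) := by group
        _ = h₁ * ((a' * h₁ * a'⁻¹) * h₂) * (a' * h₂ * a'⁻¹) := by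
            rw [← Subgroup.mem_centralizer_iff.1 (hHH' h₂.2) _ (hmap _ h₁.2)]
        _ = _ := by group
  have hsurj : Function.Surjective δ := fun k => by
    obtain ⟨h, hh, he⟩ := hout k k.2
    exact ⟨⟨h, hh⟩, Subtype.ext he.symm⟩
  have hcardeq : Nat.card ↥H = Nat.card ↥K' :=
    le_antisymm (by rw [hK'card, ← hH₁card]; exact hle) (Nat.card_le_card_of_surjective δ hsurj)
  have hinj : Function.Injective δ :=
    ((Nat.bijective_iff_surjective_and_card δ).2 ⟨hsurj, hcardeq⟩).1
  -- the action of `B`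
  set B' := B.subgroupOf X with hB'
  have hBK : ∀ x ∈ B', ∀ k ∈ K', x * k * x⁻¹ = k := fun x hx k hk => by
    rw [mul_inv_eq_iff_eq_mul]
    exact Subtype.ext (Subgroup.mem_centralizer_iff.1 (Subgroup.mem_inf.1 (hBle hx)).2 k hk).symm
  have hBa : ∀ x ∈ B', a' * x = x * a' := fun x hx =>
    Subtype.ext (mul_comm_of_isElementaryAbelian hBel haB hx)
  have hperm : ∀ x ∈ B', H.map (MulAut.conj x).toMonoidHom = H ∨
      H.map (MulAut.conj x).toMonoidHom = H' := by
    intro x hx
    by_contra h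
    push Not at h
    set H'' := H.map (MulAut.conj x).toMonoidHom
    have hc'' : IsComponent H'' := CfsgLib.Cores.isComponent_map_equiv hH (MulAut.conj x)
    have h1 := CfsgLib.Cores.le_centralizer_of_isComponent_ne hc'' hH h.1
    have h2 := CfsgLib.Cores.le_centralizer_of_isComponent_ne hc'' hH'c h.2
    -- then `K'` centralises `H`
    refine CfsgLib.Cores.center_ne_top_of_isQuasisimple hH.2 (eq_top_iff.2 fun u _ => ?_)
    rw [Subgroup.mem_center_iff]
    intro v
    apply Subtype.ext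
    show (v : ↥X) * u = u * v
    have hk := hin u u.2
    have hv'' : x * (v : ↥X) * x⁻¹ ∈ H'' := ⟨v, v.2, rfl⟩
    have e1 : Commute ((u : ↥X) * (a' * u * a'⁻¹)) (x * (v : ↥X) * x⁻¹) :=
      Commute.mul_left (Subgroup.mem_centralizer_iff.1 (h1 hv'') u u.2)
        (Subgroup.mem_centralizer_iff.1 (h2 hv'') _ (hmap _ u.2))
    have e2 : Commute ((u : ↥X) * (a' * u * a'⁻¹)) (v : ↥X) := by
      have h3 := hBK x hx _ hk
      have h4 : Commute (x * ((u : ↥X) * (a' * u * a'⁻¹)) * x⁻¹) (x * (v : ↥X) * x⁻¹) := by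
        rw [h3]; exact e1
      exact (SemiconjBy.conj_iff).1 h4
    have e3 : Commute (a' * (u : ↥X) * a'⁻¹) (v : ↥X) :=
      (Subgroup.mem_centralizer_iff.1 (hH'H (hmap _ u.2)) v v.2).symm
    have e4 : Commute (u : ↥X) (v : ↥X) := by
      have := e2.mul_left e3.inv_left
      rwa [mul_inv_cancel_right] at this
    exact e4.eq.symm
  set B₀ := B' ⊓ Subgroup.normalizer (H : Set ↥X) with hB₀
  have hidx : Nat.card ↥B' ≤ 2 * Nat.card ↥B₀ := by
    classical
    have hmem : ∀ x : ↥B', H.map (MulAut.conj (x : ↥X)).toMonoidHom ≠ H →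
        a' * (x : ↥X) ∈ B₀ := by
      intro x hx
      refine Subgroup.mem_inf.2 ⟨mul_mem (show a' ∈ B' from haB) x.2, ?_⟩
      rw [Subgroup.mem_normalizer_iff_map_conj_eq]
      have h' := (hperm x x.2).resolve_left hx
      show H.map (MulAut.conj (a' * (x : ↥X))).toMonoidHom = H
      have : (MulAut.conj (a' * (x : ↥X))).toMonoidHom =
          (MulAut.conj a').toMonoidHom.comp (MulAut.conj (x : ↥X)).toMonoidHom := by
        ext y; simp [mul_assoc]
      rw [this, ← Subgroup.map_map, h', hH', map_conj_involution haa']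
    have hmem0 : ∀ x : ↥B', H.map (MulAut.conj (x : ↥X)).toMonoidHom = H → (x : ↥X) ∈ B₀ :=
      fun x hx => Subgroup.mem_inf.2 ⟨x.2, Subgroup.mem_normalizer_iff_map_conj_eq.2 hx⟩
    let f : ↥B' → ↥B₀ ⊕ ↥B₀ := fun x =>
      if hx : H.map (MulAut.conj (x : ↥X)).toMonoidHom = H then Sum.inl ⟨x, hmem0 x hx⟩
      else Sum.inr ⟨a' * (x : ↥X), hmem x hx⟩
    have hf : Function.Injective f := by
      intro x y hxy
      simp only [f] at hxy
      split_ifs at hxy with h1 h2
      · exact Subtype.ext (congrArg (fun s : ↥B₀ => (s : ↥X)) (Sum.inl_injective hxy))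
      · exact Subtype.ext (mul_left_cancel
          (congrArg (fun s : ↥B₀ => (s : ↥X)) (Sum.inr_injective hxy)))
    refine (Nat.card_le_card_of_injective f hf).trans ?_
    rw [Nat.card_sum]
    omega
  have hB₀H' : B₀ ≤ Subgroup.normalizer (H' : Set ↥X) := by
    have key : ∀ x ∈ B₀, ∀ w ∈ H', x * w * x⁻¹ ∈ H' := by
      rintro x hx _ ⟨u, hu, rfl⟩
      obtain ⟨hxB, hxN⟩ := Subgroup.mem_inf.1 hx
      refine ⟨x * u * x⁻¹, (Subgroup.mem_normalizer_iff.1 hxN u).1 hu, ?_⟩
      show a' * (x * u * x⁻¹) * a'⁻¹ = x * (a' * u * a'⁻¹) * x⁻¹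
      have hc : Commute a' x := hBa x hxB
      calc a' * (x * u * x⁻¹) * a'⁻¹ = (a' * x) * u * (a' * x)⁻¹ := by group
        _ = (x * a') * u * (x * a')⁻¹ := by rw [hc.eq]
        _ = _ := by group
    intro x hx
    exact Subgroup.mem_normalizer_iff.2 fun w => ⟨key x hx w, fun h => by
      simpa [mul_assoc] using key x⁻¹ (inv_mem hx) _ h⟩
  have hB₀c : B₀ ≤ Subgroup.centralizer (H : Set ↥X) := fun x hx =>
    mem_centralizer_of_diag hH hH'c (Ne.symm hne) (Subgroup.mem_inf.1 hx).2 (hB₀H' hx) hmap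
      fun h hh => hBK x (Subgroup.mem_inf.1 hx).1 _ (hin h hh)
  have hB₀c' : B₀ ≤ Subgroup.centralizer (H' : Set ↥X) := by
    intro x hx
    rw [Subgroup.mem_centralizer_iff]
    rintro _ ⟨u, hu, rfl⟩
    have hc : Commute a' x := hBa x (Subgroup.mem_inf.1 hx).1
    have hxu : Commute u x := Subgroup.mem_centralizer_iff.1 (hB₀c hx) u hu
    exact ((hc.mul_left hxu).mul_left hc.inv_left).eq
  -- an elementary abelian subgroup of `H'` of order at least four
  obtain ⟨E, hE, hEH, hEc⟩ : ∃ E : Subgroup ↥X, IsElementaryAbelian 2 E ∧ E ≤ H' ∧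
      2 < Nat.card ↥E := by
    unfold PRankLE at hrk
    push Not at hrk
    obtain ⟨V, hVc, hV2, hV⟩ := hrk
    haveI := hVc
    let e : ↥H ≃* ↥K := (MulEquiv.ofBijective δ ⟨hinj, hsurj⟩).trans (Subgroup.subgroupOfEquivOfLe hKX)
    let g : ↥K →* ↥X := (MulAut.conj a').toMonoidHom.comp (H.subtype.comp e.symm.toMonoidHom)
    have hg : Function.Injective g :=
      (MulAut.conj a').injective.comp (H.subtype_injective.comp e.symm.injective)
    refine ⟨V.map g, ⟨Subgroup.map_isMulCommutative V g, ?_⟩, ?_, ?_⟩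
    · rintro _ ⟨v, hv, rfl⟩
      rw [← map_pow, hV2 v hv, map_one]
    · rintro _ ⟨v, -, rfl⟩
      exact ⟨_, (e.symm v).2, rfl⟩
    · rw [Subgroup.card_map_of_injective hg]
      simpa using hV
  have hint : B₀ ⊓ E = ⊥ := by
    refine (Subgroup.eq_bot_iff_forall _).2 fun x hx => ?_
    obtain ⟨hx0, hxE⟩ := Subgroup.mem_inf.1 hx
    have hxH : x ∈ H := by
      have := hmap' x (hEH hxE)
      rwa [hBa x (Subgroup.mem_inf.1 hx0).1, mul_inv_cancel_right] at this
    have hx2 : x * x = 1 := by rw [← pow_two]; exact hE.2 x hxE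
    have h1 : δ ⟨x, hxH⟩ = δ 1 := by
      rw [map_one]
      apply Subtype.ext
      show x * (a' * x * a'⁻¹) = 1
      rw [hBa x (Subgroup.mem_inf.1 hx0).1, mul_inv_cancel_right, hx2]
    exact congrArg Subtype.val (hinj h1)
  have hEN : B₀ ≤ Subgroup.centralizer (E : Set ↥X) :=
    hB₀c'.trans (Subgroup.centralizer_le hEH)
  have hB₀e : IsElementaryAbelian 2 B₀ := by
    refine ⟨⟨⟨fun x y => Subtype.ext (Subtype.ext (mul_comm_of_isElementaryAbelian hBel
      (Subgroup.mem_inf.1 x.2).1 (Subgroup.mem_inf.1 y.2).1))⟩⟩, fun x hx => Subtype.ext ?_⟩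
    simpa using hBel.2 (x : G) (Subgroup.mem_inf.1 hx).1
  set B'' := B₀ ⊔ E with hB''
  have hB''e : IsElementaryAbelian 2 B'' := CfsgLib.ThompsonJ.isElementaryAbelian_sup hB₀e hE hEN
  have hB''card : Nat.card ↥B'' = Nat.card ↥B₀ * Nat.card ↥E :=
    CfsgLib.BGAppendix.card_sup_eq_mul _ _
      (hEN.trans (Subgroup.centralizer_le_normalizer _)) hint
  obtain ⟨k, hk⟩ := IsPGroup.iff_card.mp (isPGroup_of_isElementaryAbelian hBel)
  have hrankB : PRankLE 2 k ↥(Subgroup.centralizer ({a} : Set G) ⊓ Subgroup.centralizer (K : Set G)) := by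
    intro A hAc hA2
    haveI := hAc
    have := hBmax (A.map (Subgroup.subtype _)) (Subgroup.map_subtype_le _)
      ⟨Subgroup.map_isMulCommutative A _, by
        rintro _ ⟨v, hv, rfl⟩
        rw [← map_pow, hA2 v hv, map_one]⟩
    rw [Subgroup.card_map_of_injective (Subgroup.subtype_injective _), hk] at this
    exact this
  have hle' : B''.map X.subtype ≤ X ⊓ Subgroup.centralizer (H₁ : Set G) := by
    refine le_inf (Subgroup.map_subtype_le _) ?_
    rintro _ ⟨z, hz, rfl⟩
    rw [Subgroup.mem_centralizer_iff]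
    rintro _ ⟨u, hu, rfl⟩
    exact congrArg Subtype.val
      (Subgroup.mem_centralizer_iff.1 ((sup_le hB₀c (hEH.trans hH'H)) hz) u hu)
  have hbound := hrank (by rw [hH₁card, hcardeq, hK'card]) k hrankB
    ((B''.map X.subtype).subgroupOf _)
    ⟨⟨fun x y => Subtype.ext (Subtype.ext (by
      obtain ⟨u, hu, hue⟩ := x.2
      obtain ⟨v, hv, hve⟩ := y.2
      have := mul_comm_of_isElementaryAbelian hB''e hu hv
      have e := congrArg Subtype.val this
      simp only [Subgroup.coe_mul] at e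
      rw [show ((u : ↥X) : G) = _ from hue, show ((v : ↥X) : G) = _ from hve] at e
      exact e))⟩⟩
    (fun x hx => by
      obtain ⟨u, hu, hue⟩ := hx
      apply Subtype.ext
      have e := congrArg Subtype.val (hB''e.2 u hu)
      simp only [SubmonoidClass.coe_pow, OneMemClass.coe_one] at e ⊢
      rw [show ((u : ↥X) : G) = _ from hue] at e
      exact e)
  rw [Nat.card_congr (Subgroup.subgroupOfEquivOfLe hle').toEquiv,
    Subgroup.card_map_of_injective X.subtype_injective, hB''card, ← hk,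
    ← Nat.card_congr (Subgroup.subgroupOfEquivOfLe hBX).toEquiv] at hbound
  have hpos : 0 < Nat.card ↥B₀ := Nat.card_pos
  have h3 : Nat.card ↥B₀ * 3 ≤ Nat.card ↥B₀ * Nat.card ↥E := Nat.mul_le_mul_left _ hEc
  have hidx' : Nat.card ↥(B.subgroupOf X) ≤ 2 * Nat.card ↥B₀ := hidx
  omega

end CfsgLib.Signalizer
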